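import Mathlib
import Cfsg.Prelude.Def_GeometricClasses
import Cfsg.Agent.Lib.Helper77.Asch.Defs
import Cfsg.Agent.Lib.Helper80.AS.Defs
import Cfsg.Agent.Lib.Helper77.AschG.DefsB

/-! Ladder OG: Aschbacher's theorem for the odd-dimensional orthogonal groups, general dimension (definitions). -/

set_option autoImplicit false

namespace Cfsg.Agent.Lib.Lead.OG

open Cfsg Cfsg.Geo QuadraticMap
open scoped MatrixGroups Matrix Kronecker

variable {ι : Type} [Fintype ι] [DecidableEq ι] {F : Type*} [Field F]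

/-- `H` lies in a member of one of the geometric classes of the odd-dimensional orthogonal group (readable form). -/
def InGeoO [Fintype F] (Q : (ι → F) → F) (H : Subgroup (GL ι F)) : Prop :=
  (∃ W : Submodule F (ι → F), W ≠ ⊥ ∧ IsTotallySingularQuad Q W ∧ H ≤ subspaceStabilizer W) ∨
  (∃ W : Submodule F (ι → F), W ≠ ⊥ ∧ W ≠ ⊤ ∧ IsNondegenerateOn (polar Q) W ∧ H ≤ subspaceStabilizer W) ∨
  (∃ (t k : ℕ) (D : Fin t → Submodule F (ι → F)), 1 < k ∧ IsOrthogonalMDecomposition Q k D ∧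
      H ≤ decompositionStabilizer D) ∨
  (∃ (t : ℕ) (D : Fin t → Submodule F (ι → F)), (Fintype.card F).Prime ∧ IsOrthogonalMDecomposition Q 1 D ∧
      H ≤ decompositionStabilizer D) ∨
  (∃ (r : ℕ) (K : Subalgebra F (Matrix ι ι F)), r.Prime ∧ Fintype.card ι ≠ r ∧ IsFieldSubalgebra r K ∧
      IsSelfAdjointFor (polar Q) K ∧ H ≤ subalgebraNormalizer K) ∨
  (∃ (n₁ n₂ : ℕ) (e : ι ≃ Fin n₁ × Fin n₂) (P : GL ι F)
      (f₁ : (Fin n₁ → F) → (Fin n₁ → F) → F) (f₂ : (Fin n₂ → F) → (Fin n₂ → F) → F),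
      3 ≤ n₁ ∧ n₁ < n₂ ∧ IsSymmetricForm f₁ ∧ IsSymmetricForm f₂ ∧ IsTensorFormStructure id (polar Q) f₁ f₂ e P ∧
      H ≤ tensorProductSubgroup n₁ n₂ e P) ∨
  (∃ (F₀ : Subfield F) (r : ℕ) (P : GL ι F), r.Prime ∧ Fintype.card F = Nat.card F₀ ^ r ∧
      IsQuadFormRationalStructure Q F₀ P ∧ H ≤ subfieldSubgroup F₀ P) ∨
  (∃ (k t : ℕ) (e : ι ≃ (Fin t → Fin k)) (P : GL ι F) (f₁ : (Fin k → F) → (Fin k → F) → F),
      3 ≤ k ∧ 2 ≤ t ∧ ¬ (Fintype.card F = 3 ∧ k = 3) ∧ IsSymmetricForm f₁ ∧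
      IsTensorPowerFormStructure id (polar Q) f₁ e P ∧ H ≤ tensorWreathSubgroup k t e P)

/-- transport of a matrix on the tensor power to `ι` along `e`, conjugated by `P` (general index type version of helper77's `tw`). -/
def twi {a k : ℕ} (e : ι ≃ (Fin k → Fin a)) (P : GL ι F)
    (M : Matrix (Fin k → Fin a) (Fin k → Fin a) F) : Matrix ι ι F :=
  (P : Matrix ι ι F) * Matrix.reindex e.symm e.symm M * ((P⁻¹ : GL ι F) : Matrix ι ι F)

/-- the bilinear form with Gram matrix `J`. -/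
def gf {κ : Type} [Fintype κ] (J : Matrix κ κ F) (u v : κ → F) : F := u ⬝ᵥ J *ᵥ v

end Cfsg.Agent.Lib.Lead.OG
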