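import Cfsg.Agent.Lib.Lead.OG.Defs
import Cfsg.Agent.Lib.Helper80.AS.TNORM0

set_option autoImplicit false

namespace Cfsg.Agent.Lib.Lead.OG

open Cfsg Cfsg.Geo QuadraticMap
open Cfsg.Agent.Lib.Helper77.Asch (NormBy MinOver)
open Cfsg.Agent.Lib.Helper80.AS (env cen IsScal IsComm SelfAdj Projs tmat IsLeftFactor GramTensor)
open Cfsg.Agent.Lib.Helper77.AschG (pt slot fp)
open scoped MatrixGroups Matrix Kronecker

variable {ι : Type} [Fintype ι] [DecidableEq ι] {F : Type*} [Field F]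

/-- Skolem–Noether for algebra endomorphisms of `M_ι(F)`. -/
theorem tbc_sn (α : Matrix ι ι F →ₐ[F] Matrix ι ι F) :
    ∃ y : GL ι F, ∀ x, α x = (y : Matrix ι ι F) * x * ((y⁻¹ : GL ι F) : Matrix ι ι F) := by
  classical
  rcases isEmpty_or_nonempty ι with hι | hι
  · exact ⟨1, fun x => Subsingleton.elim _ _⟩
  · have hinj : Function.Injective α := by
      have := RingHom.injective (α : Matrix ι ι F →+* Matrix ι ι F)
      exact this
    have hsurj : Function.Surjective α := by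
      have := (LinearMap.injective_iff_surjective (f := α.toLinearMap)).mp hinj
      exact this
    obtain ⟨a, a', h1, h2, h3⟩ :=
      Cfsg.Agent.Lib.Helper80.AS.tnorm_sn (AlgEquiv.ofBijective α ⟨hinj, hsurj⟩)
    refine ⟨⟨a, a', h1, h2⟩, fun x => ?_⟩
    exact h3 x

/-- TBC (port of helper77's TB2 `tensor_basis_of_hom` to `ι`). -/
theorem tensor_basis_of_hom_i {a k : ℕ} (hc : Fintype.card ι = a ^ k)
    (Ψ : Matrix (Fin k → Fin a) (Fin k → Fin a) F →ₐ[F] Matrix ι ι F) :
    ∃ (e : ι ≃ (Fin k → Fin a)) (P : GL ι F), ∀ M, Ψ M = twi e P M := by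
  classical
  have hcard : Fintype.card ι = Fintype.card (Fin k → Fin a) := by
    simp [hc]
  let e : ι ≃ (Fin k → Fin a) := Fintype.equivOfCardEq hcard
  obtain ⟨P, hP⟩ := tbc_sn (Ψ.comp (Matrix.reindexAlgEquiv F F e).toAlgHom)
  refine ⟨e, P, fun M => ?_⟩
  have h := hP (Matrix.reindex e.symm e.symm M)
  unfold twi
  rw [← h]
  simp

end Cfsg.Agent.Lib.Lead.OG
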