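import Cfsg.Agent.Lib.Lead.OG.Defs
import Cfsg.Agent.Lib.Helper80.AS.TMUL

set_option autoImplicit false

namespace Cfsg.Agent.Lib.Lead.OG

open Cfsg Cfsg.Geo QuadraticMap
open Cfsg.Agent.Lib.Helper80.AS (env cen IsScal IsComm SelfAdj Projs tmat IsLeftFactor GramTensor)
open scoped MatrixGroups Matrix Kronecker

variable {ι : Type} [Fintype ι] [DecidableEq ι] {F : Type*} [Field F]

theorem adj0_form {κ : Type} [Fintype κ] (G : Matrix κ κ F) (x y : κ → F) :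
    formOfGram id G x y = x ⬝ᵥ G *ᵥ y := by
  unfold formOfGram
  simp only [dotProduct, Matrix.mulVec, Finset.mul_sum, id, mul_assoc]

theorem adj0_exists {s k : ℕ} (e₀ : ι ≃ Fin s × Fin k) (P₀ : GL ι F) (u : ι → F) :
    ∃ x' : Fin s × Fin k → F, u = (P₀ : Matrix ι ι F) *ᵥ (x' ∘ e₀) := by
  refine ⟨(((P₀⁻¹ : GL ι F) : Matrix ι ι F) *ᵥ u) ∘ e₀.symm, ?_⟩
  have h : ((((P₀⁻¹ : GL ι F) : Matrix ι ι F) *ᵥ u) ∘ e₀.symm) ∘ e₀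
      = ((P₀⁻¹ : GL ι F) : Matrix ι ι F) *ᵥ u := by
    funext i
    simp
  rw [h, Matrix.mulVec_mulVec, ← Units.val_mul, mul_inv_cancel, Units.val_one, Matrix.one_mulVec]

/-- ADJ0. -/
theorem adj_leftFactor (f : (ι → F) → (ι → F) → F) {s k : ℕ} (e₀ : ι ≃ Fin s × Fin k) (P₀ : GL ι F)
    (J₁ : Matrix (Fin s) (Fin s) F) (J₂ : Matrix (Fin k) (Fin k) F) (hJ : GramTensor f e₀ P₀ J₁ J₂)
    (d1 : J₁.det ≠ 0) (x : Matrix (Fin s) (Fin s) F) (u v : ι → F) :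
    f (tmat e₀ P₀ (x ⊗ₖ (1 : Matrix (Fin k) (Fin k) F)) *ᵥ u) v =
      f u (tmat e₀ P₀ ((J₁⁻¹ * xᵀ * J₁) ⊗ₖ (1 : Matrix (Fin k) (Fin k) F)) *ᵥ v) := by
  obtain ⟨x', rfl⟩ := adj0_exists e₀ P₀ u
  obtain ⟨y', rfl⟩ := adj0_exists e₀ P₀ v
  rw [Cfsg.Agent.Lib.Helper80.AS.tmat_mulVec, Cfsg.Agent.Lib.Helper80.AS.tmat_mulVec, hJ, hJ,
    adj0_form, adj0_form]
  have hu : IsUnit J₁.det := isUnit_iff_ne_zero.2 d1
  have hmat : (x ⊗ₖ (1 : Matrix (Fin k) (Fin k) F))ᵀ * (J₁ ⊗ₖ J₂) =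
      (J₁ ⊗ₖ J₂) * ((J₁⁻¹ * xᵀ * J₁) ⊗ₖ (1 : Matrix (Fin k) (Fin k) F)) := by
    rw [← Matrix.kroneckerMap_transpose, Matrix.transpose_one, ← Matrix.mul_kronecker_mul,
      ← Matrix.mul_kronecker_mul, Matrix.one_mul, Matrix.mul_one, mul_assoc,
      Matrix.mul_nonsing_inv_cancel_left _ _ hu]
  rw [Matrix.mulVec_mulVec, ← hmat, ← Matrix.mulVec_mulVec, Matrix.dotProduct_mulVec x',
    Matrix.vecMul_transpose]

end Cfsg.Agent.Lib.Lead.OG
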