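import Cfsg.Agent.Lib.Lead.OG.Defs

set_option autoImplicit false

namespace Cfsg.Agent.Lib.Lead.OG

open Cfsg Cfsg.Geo QuadraticMap
open Cfsg.Agent.Lib.Helper77.Asch (NormBy MinOver)
open Cfsg.Agent.Lib.Helper80.AS (env cen IsScal IsComm SelfAdj Projs tmat IsLeftFactor GramTensor)
open Cfsg.Agent.Lib.Helper77.AschG (pt slot fp)
open scoped MatrixGroups Matrix Kronecker

variable {ι : Type} [Fintype ι] [DecidableEq ι] {F : Type*} [Field F]

theorem ecomm_aux (L : Subgroup (GL ι F)) (w : Matrix ι ι F)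
    (hw : ∀ x ∈ L, w * (x : Matrix ι ι F) = (x : Matrix ι ι F) * w) :
    ∀ X ∈ env L, w * X = X * w := by
  have h1 : env L ≤ Subalgebra.centralizer F {w} := by
    apply Algebra.adjoin_le
    rintro _ ⟨x, hx, rfl⟩
    rw [SetLike.mem_coe, Subalgebra.mem_centralizer_iff]
    intro g hg
    rw [Set.mem_singleton_iff.1 hg]
    exact hw x hx
  intro X hX
  exact (Subalgebra.mem_centralizer_iff F).1 (h1 hX) w rfl

/-- ECOMM. -/
theorem env_comm (L₁ L₂ : Subgroup (GL ι F)) (h : ∀ x ∈ L₁, ∀ y ∈ L₂, x * y = y * x) :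
    ∀ a ∈ env L₁, ∀ b ∈ env L₂, a * b = b * a := by
  intro a ha b hb
  apply ecomm_aux L₂ a _ b hb
  intro y hy
  symm
  apply ecomm_aux L₁ (y : Matrix ι ι F) _ a ha
  intro x hx
  rw [← Units.val_mul, ← Units.val_mul, h x hx y hy]

end Cfsg.Agent.Lib.Lead.OG
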