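import Cfsg.Agent.Lib.Lead.OG.Defs
import Cfsg.Agent.Lib.Helper80.AS.BURN

set_option autoImplicit false

namespace Cfsg.Agent.Lib.Lead.OG

open Cfsg Cfsg.Geo QuadraticMap
open Cfsg.Agent.Lib.Helper77.Asch (NormBy MinOver)
open Cfsg.Agent.Lib.Helper80.AS (env cen IsScal IsComm SelfAdj Projs tmat IsLeftFactor GramTensor)
open Cfsg.Agent.Lib.Helper77.AschG (pt slot fp)
open scoped MatrixGroups Matrix Kronecker

variable {ι : Type} [Fintype ι] [DecidableEq ι] {F : Type*} [Field F]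

/-- the units of a subalgebra of the matrix algebra, as a subgroup of `GL` -/
def egenUnits (A : Subalgebra F (Matrix ι ι F)) : Subgroup (GL ι F) where
  carrier := {g | (g : Matrix ι ι F) ∈ A ∧ ((g⁻¹ : GL ι F) : Matrix ι ι F) ∈ A}
  mul_mem' := by
    rintro a b ⟨ha, ha'⟩ ⟨hb, hb'⟩
    refine ⟨?_, ?_⟩
    · rw [Units.val_mul]; exact A.mul_mem ha hb
    · rw [mul_inv_rev, Units.val_mul]; exact A.mul_mem hb' ha'
  one_mem' := ⟨by rw [Units.val_one]; exact A.one_mem, by rw [inv_one, Units.val_one]; exact A.one_mem⟩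
  inv_mem' := by
    rintro a ⟨ha, ha'⟩
    exact ⟨ha', by rw [inv_inv]; exact ha⟩

/-- EGEN. -/
theorem adjoin_top_of_gen [Nonempty ι] (N : Subgroup (GL ι F)) (habs : ActsAbsolutelyIrreducibly (matrixSet N))
    {k : ℕ} (L : Fin k → Subgroup (GL ι F)) (hgen : N ≤ ⨆ i, L i) :
    Algebra.adjoin F (⋃ i, (env (L i) : Set (Matrix ι ι F))) = ⊤ := by
  classical
  set A := Algebra.adjoin F (⋃ i, (env (L i) : Set (Matrix ι ι F))) with hA
  have hLA : ∀ i, ∀ g ∈ L i, (g : Matrix ι ι F) ∈ A := by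
    intro i g hg
    apply Algebra.subset_adjoin
    refine Set.mem_iUnion.2 ⟨i, ?_⟩
    exact Algebra.subset_adjoin ⟨g, hg, rfl⟩
  have hLU : ∀ i, L i ≤ egenUnits A := fun i g hg => ⟨hLA i g hg, hLA i g⁻¹ ((L i).inv_mem hg)⟩
  have hNU : N ≤ egenUnits A := hgen.trans (iSup_le hLU)
  have hspan : Submodule.span F (matrixSet N) ≤ Subalgebra.toSubmodule A := by
    rw [Submodule.span_le]
    rintro _ ⟨g, hg, rfl⟩
    exact (hNU hg).1
  rw [Cfsg.Agent.Lib.Helper80.AS.span_eq_top N habs] at hspan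
  rw [eq_top_iff]
  intro x _
  exact hspan Submodule.mem_top

end Cfsg.Agent.Lib.Lead.OG
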