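import Cfsg.Agent.Lib.Lead.OG.Defs

set_option autoImplicit false

namespace Cfsg.Agent.Lib.Lead.OG

open Cfsg Cfsg.Geo QuadraticMap
open Cfsg.Agent.Lib.Helper77.Asch (NormBy MinOver)
open Cfsg.Agent.Lib.Helper80.AS (env cen IsScal IsComm SelfAdj Projs tmat IsLeftFactor GramTensor)
open Cfsg.Agent.Lib.Helper77.AschG (pt slot fp)
open scoped MatrixGroups Matrix Kronecker

variable {ι : Type} [Fintype ι] [DecidableEq ι] {F : Type*} [Field F]

theorem envc_aux (L : Subgroup (GL ι F)) (g : GL ι F) (y : Matrix ι ι F) (hy : y ∈ env L) :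
    (g : Matrix ι ι F) * y * ((g⁻¹ : GL ι F) : Matrix ι ι F) ∈ env (L.map (MulAut.conj g).toMonoidHom) := by
  have hgg' : ((g⁻¹ : GL ι F) : Matrix ι ι F) * (g : Matrix ι ι F) = 1 := by
    rw [← Units.val_mul, inv_mul_cancel, Units.val_one]
  have hgg : (g : Matrix ι ι F) * ((g⁻¹ : GL ι F) : Matrix ι ι F) = 1 := by
    rw [← Units.val_mul, mul_inv_cancel, Units.val_one]
  unfold env at hy ⊢
  induction hy using Algebra.adjoin_induction with
  | mem x hx =>
    obtain ⟨z, hz, rfl⟩ := hx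
    apply Algebra.subset_adjoin
    refine ⟨g * z * g⁻¹, ⟨z, hz, rfl⟩, ?_⟩
    change ((g * z * g⁻¹ : GL ι F) : Matrix ι ι F) = _
    rw [Units.val_mul, Units.val_mul]
  | algebraMap r =>
    rw [Algebra.algebraMap_eq_smul_one, Matrix.mul_smul, Matrix.smul_mul, mul_one, hgg,
      ← Algebra.algebraMap_eq_smul_one]
    exact Subalgebra.algebraMap_mem _ r
  | add x y _ _ hx hy =>
    rw [mul_add, add_mul]
    exact Subalgebra.add_mem _ hx hy
  | mul x y _ _ hx hy =>
    have : (g : Matrix ι ι F) * (x * y) * ((g⁻¹ : GL ι F) : Matrix ι ι F)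
        = ((g : Matrix ι ι F) * x * ((g⁻¹ : GL ι F) : Matrix ι ι F)) *
          ((g : Matrix ι ι F) * y * ((g⁻¹ : GL ι F) : Matrix ι ι F)) := by
      calc _ = (g : Matrix ι ι F) * x * 1 * y * ((g⁻¹ : GL ι F) : Matrix ι ι F) := by
            simp only [mul_one, mul_assoc]
        _ = _ := by rw [← hgg']; simp only [mul_assoc]
    rw [this]
    exact Subalgebra.mul_mem _ hx hy

/-- ENVC. -/
theorem env_conj_iff (L : Subgroup (GL ι F)) (g : GL ι F) (y : Matrix ι ι F) :
    y ∈ env (L.map (MulAut.conj g).toMonoidHom) ↔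
      ((g⁻¹ : GL ι F) : Matrix ι ι F) * y * (g : Matrix ι ι F) ∈ env L := by
  have hgg' : ((g⁻¹ : GL ι F) : Matrix ι ι F) * (g : Matrix ι ι F) = 1 := by
    rw [← Units.val_mul, inv_mul_cancel, Units.val_one]
  have hgg : (g : Matrix ι ι F) * ((g⁻¹ : GL ι F) : Matrix ι ι F) = 1 := by
    rw [← Units.val_mul, mul_inv_cancel, Units.val_one]
  constructor
  · intro hy
    have h1 := envc_aux (L.map (MulAut.conj g).toMonoidHom) g⁻¹ y hy
    rw [inv_inv] at h1
    have h2 : (L.map (MulAut.conj g).toMonoidHom).map (MulAut.conj g⁻¹).toMonoidHom = L := by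
      rw [Subgroup.map_map]
      have : (MulAut.conj g⁻¹).toMonoidHom.comp (MulAut.conj g).toMonoidHom = MonoidHom.id _ := by
        ext x
        simp [MulAut.conj_apply, mul_assoc]
      rw [this, Subgroup.map_id]
    rwa [h2] at h1
  · intro hy
    have h1 := envc_aux L g _ hy
    have h2 : (g : Matrix ι ι F) * (((g⁻¹ : GL ι F) : Matrix ι ι F) * y * (g : Matrix ι ι F)) *
        ((g⁻¹ : GL ι F) : Matrix ι ι F) = y := by
      calc _ = ((g : Matrix ι ι F) * ((g⁻¹ : GL ι F) : Matrix ι ι F)) * y *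
            ((g : Matrix ι ι F) * ((g⁻¹ : GL ι F) : Matrix ι ι F)) := by simp only [mul_assoc]
        _ = y := by rw [hgg, one_mul, mul_one]
    rwa [h2] at h1

end Cfsg.Agent.Lib.Lead.OG
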