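import Cfsg.Agent.Lib.Lead.OG.Defs
import Cfsg.Agent.Lib.Helper80.AS.UNIQ
import Cfsg.Agent.Lib.Helper77.AschG.PT
import Cfsg.Agent.Lib.Helper77.AschG.WC

/-! Ladder OG, rung GPW: the Gram matrix of a form whose adjoint preserves all slots is a tensor power. -/

set_option autoImplicit false

namespace Cfsg.Agent.Lib.Lead.OG

open Cfsg Cfsg.Geo QuadraticMap
open Cfsg.Agent.Lib.Helper77.Asch (NormBy MinOver)
open Cfsg.Agent.Lib.Helper80.AS
open Cfsg.Agent.Lib.Helper77.AschG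
open scoped MatrixGroups Matrix Kronecker

variable {ι : Type} [Fintype ι] [DecidableEq ι] {F : Type*} [Field F]

theorem gpw_mul_inv (P : GL ι F) : (P : Matrix ι ι F) * ((P⁻¹ : GL ι F) : Matrix ι ι F) = 1 := by
  rw [← Units.val_mul, mul_inv_cancel, Units.val_one]

theorem gpw_inv_mul (P : GL ι F) : ((P⁻¹ : GL ι F) : Matrix ι ι F) * (P : Matrix ι ι F) = 1 := by
  rw [← Units.val_mul, inv_mul_cancel, Units.val_one]

theorem gpw_surj {κ : Type} (e : ι ≃ κ) (P : GL ι F) (u : ι → F) :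
    ∃ x : κ → F, (P : Matrix ι ι F) *ᵥ (x ∘ e) = u := by
  refine ⟨(((P⁻¹ : GL ι F) : Matrix ι ι F) *ᵥ u) ∘ e.symm, ?_⟩
  have : ((((P⁻¹ : GL ι F) : Matrix ι ι F) *ᵥ u) ∘ e.symm) ∘ e = ((P⁻¹ : GL ι F) : Matrix ι ι F) *ᵥ u := by
    funext i
    simp
  rw [this, Matrix.mulVec_mulVec, gpw_mul_inv, Matrix.one_mulVec]

theorem gpw_ne_zero {κ : Type} (e : ι ≃ κ) (P : GL ι F) (x : κ → F) (hx : x ≠ 0) :
    (P : Matrix ι ι F) *ᵥ (x ∘ e) ≠ 0 := by
  intro h0
  apply hx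
  have h1 : ((P⁻¹ : GL ι F) : Matrix ι ι F) *ᵥ ((P : Matrix ι ι F) *ᵥ (x ∘ e)) = 0 := by
    rw [h0, Matrix.mulVec_zero]
  rw [Matrix.mulVec_mulVec, gpw_inv_mul, Matrix.one_mulVec] at h1
  funext a
  have := congrFun h1 (e.symm a)
  simpa using this

theorem gpw_twi_mulVec {a k : ℕ} (e : ι ≃ (Fin k → Fin a)) (P : GL ι F)
    (M : Matrix (Fin k → Fin a) (Fin k → Fin a) F) (x : (Fin k → Fin a) → F) :
    twi e P M *ᵥ ((P : Matrix ι ι F) *ᵥ (x ∘ e)) = (P : Matrix ι ι F) *ᵥ ((M *ᵥ x) ∘ e) := by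
  unfold twi
  rw [Matrix.mulVec_mulVec, mul_assoc, gpw_inv_mul, mul_one, ← Matrix.mulVec_mulVec]
  congr 1
  rw [Matrix.reindex_apply, Matrix.submatrix_mulVec_equiv]
  congr 2
  funext u
  simp

theorem gpw_gram {a : ℕ} (J : Matrix (Fin a) (Fin a) F) : gramMatrix (gf J) = J := by
  ext i j
  simp [gramMatrix, gf]

theorem gpw_std {a k : ℕ} (J : Matrix (Fin a) (Fin a) F) (dJ : J.det ≠ 0) (i : Fin k)
    (x : Matrix (Fin a) (Fin a) F) :
    (slot i x)ᵀ * pt (fun _ : Fin k => J) = pt (fun _ : Fin k => J) * slot i (J⁻¹ * xᵀ * J) := by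
  have hu : IsUnit J.det := isUnit_iff_ne_zero.mpr dJ
  unfold slot
  rw [pt_transpose, pt_mul, pt_mul]
  congr 1
  funext j
  by_cases hj : j = i
  · subst hj
    rw [Function.update_self, Function.update_self, ← mul_assoc, ← mul_assoc,
      Matrix.mul_nonsing_inv J hu, one_mul]
  · rw [Function.update_of_ne hj, Function.update_of_ne hj, Matrix.transpose_one, one_mul, mul_one]

/-- GPW. -/
theorem gram_power [Nonempty ι] (f : (ι → F) → (ι → F) → F) (hf : IsBilinearForm f) (hfn : IsNondegenerateForm f)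
    {a k : ℕ} (e : ι ≃ (Fin k → Fin a)) (P : GL ι F) (J : Matrix (Fin a) (Fin a) F) (dJ : J.det ≠ 0)
    (hadj : ∀ i x u v, f (twi e P (slot i x) *ᵥ u) v = f u (twi e P (slot i (J⁻¹ * xᵀ * J)) *ᵥ v)) :
    IsTensorPowerFormStructure id f (gf J) e P := by
  have hu : IsUnit J.det := isUnit_iff_ne_zero.mpr dJ
  let f' : ((Fin k → Fin a) → F) → ((Fin k → Fin a) → F) → F :=
    fun x y => f ((P : Matrix ι ι F) *ᵥ (x ∘ e)) ((P : Matrix ι ι F) *ᵥ (y ∘ e))
  have hadd : ∀ x y : (Fin k → Fin a) → F, (x + y) ∘ e = x ∘ e + y ∘ e := fun _ _ => rfl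
  have hsmul : ∀ (c : F) (x : (Fin k → Fin a) → F), (c • x) ∘ e = c • (x ∘ e) := fun _ _ => rfl
  have hbil : IsBilinearForm f' :=
    { add_left := by
        intro x y v
        change f _ _ = f _ _ + f _ _
        rw [hadd, Matrix.mulVec_add, hf.add_left]
      smul_left := by
        intro c x v
        change f _ _ = c * f _ _
        rw [hsmul, Matrix.mulVec_smul, hf.smul_left]
      add_right := by
        intro v x y
        change f _ _ = f _ _ + f _ _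
        rw [hadd, Matrix.mulVec_add, hf.add_right]
      smul_right := by
        intro c v x
        change f _ _ = c * f _ _
        rw [hsmul, Matrix.mulVec_smul, hf.smul_right] }
  have hnd : IsNondegenerateForm f' := by
    intro v hv
    obtain ⟨⟨x0, hx0⟩, ⟨y0, hy0⟩⟩ := hfn _ (gpw_ne_zero e P v hv)
    obtain ⟨x, rfl⟩ := gpw_surj e P x0
    obtain ⟨y, rfl⟩ := gpw_surj e P y0
    exact ⟨⟨x, hx0⟩, ⟨y, hy0⟩⟩
  set G := gramMatrix f' with hG
  have hGf : ∀ x y, f' x y = x ⬝ᵥ (G *ᵥ y) := uniq_gram f' hbil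
  have hdet : G.det ≠ 0 := uniq_det f' hbil hnd
  have hrel : ∀ i x, (slot i x)ᵀ * G = G * slot i (J⁻¹ * xᵀ * J) := by
    intro i x
    apply uniq_ext
    intro u v
    have h1 := hadj i x ((P : Matrix ι ι F) *ᵥ (u ∘ e)) ((P : Matrix ι ι F) *ᵥ (v ∘ e))
    rw [gpw_twi_mulVec, gpw_twi_mulVec] at h1
    have h2 : f' (slot i x *ᵥ u) v = f' u (slot i (J⁻¹ * xᵀ * J) *ᵥ v) := h1
    rw [hGf, hGf] at h2
    rw [← Matrix.mulVec_mulVec, ← Matrix.mulVec_mulVec, ← h2, Matrix.dotProduct_mulVec u,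
      Matrix.vecMul_transpose]
  set G₀ : Matrix (Fin k → Fin a) (Fin k → Fin a) F := pt (fun _ : Fin k => J) with hG₀
  set G₁ : Matrix (Fin k → Fin a) (Fin k → Fin a) F := pt (fun _ : Fin k => J⁻¹) with hG₁
  have h10 : G₁ * G₀ = 1 := by
    rw [hG₀, hG₁, pt_mul, Matrix.nonsing_inv_mul J hu, pt_one]
  have h01 : G₀ * G₁ = 1 := by
    rw [hG₀, hG₁, pt_mul, Matrix.mul_nonsing_inv J hu, pt_one]
  have hcomm : ∀ i z, (G₁ * G) * slot i z = slot i z * (G₁ * G) := by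
    intro i z
    have hz : J⁻¹ * ((J * z * J⁻¹)ᵀ)ᵀ * J = z := by
      rw [Matrix.transpose_transpose, ← mul_assoc, ← mul_assoc, Matrix.nonsing_inv_mul J hu, one_mul,
        mul_assoc, Matrix.nonsing_inv_mul J hu, mul_one]
    have h1 := hrel i (J * z * J⁻¹)ᵀ
    have h2 := gpw_std (k := k) J dJ i (J * z * J⁻¹)ᵀ
    rw [hz] at h1 h2
    rw [← hG₀] at h2
    generalize (slot i (J * z * J⁻¹)ᵀ)ᵀ = S at h1 h2
    have h3 : G₁ * S = slot i z * G₁ := by
      calc G₁ * S = G₁ * (S * G₀) * G₁ := by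
            rw [mul_assoc G₁, mul_assoc S, h01, mul_one]
        _ = slot i z * G₁ := by rw [h2, ← mul_assoc, h10, one_mul]
    rw [mul_assoc, ← h1, ← mul_assoc, h3, mul_assoc]
  obtain ⟨l, hl⟩ := scalar_of_comm_slots (G₁ * G) hcomm
  have hGl : G = l • G₀ := by
    calc G = G₀ * (G₁ * G) := by rw [← mul_assoc, h01, one_mul]
      _ = l • G₀ := by rw [hl, Matrix.mul_smul, mul_one]
  have hl0 : l ≠ 0 := by
    intro h0
    apply hdet
    rw [hGl, h0, zero_smul]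
    have : Nonempty (Fin k → Fin a) := ⟨e (Classical.arbitrary ι)⟩
    exact Matrix.det_zero
  refine ⟨l, hl0, ?_⟩
  intro x y
  change f' x y = _
  rw [hGf, hGl, gpw_gram]
  simp only [dotProduct, Matrix.mulVec, Finset.mul_sum, Matrix.smul_apply, smul_eq_mul, hG₀, pt_apply, id]
  refine Finset.sum_congr rfl fun u _ => Finset.sum_congr rfl fun v _ => ?_
  ring

end Cfsg.Agent.Lib.Lead.OG
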