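import Cfsg.Agent.Lib.Lead.OG.Defs

set_option autoImplicit false

namespace Cfsg.Agent.Lib.Lead.OG

open Cfsg Cfsg.Geo QuadraticMap
open Cfsg.Agent.Lib.Helper77.Asch (NormBy MinOver)
open Cfsg.Agent.Lib.Helper80.AS (env cen IsScal IsComm SelfAdj Projs tmat IsLeftFactor GramTensor)
open Cfsg.Agent.Lib.Helper77.AschG (pt slot fp)
open scoped MatrixGroups Matrix Kronecker

variable {ι : Type} [Fintype ι] [DecidableEq ι] {F : Type*} [Field F]

/-- a matrix commuting with `L` commutes with `env L` -/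
theorem lcen_comm_env (L : Subgroup (GL ι F)) (c : Matrix ι ι F)
    (hc : ∀ y ∈ L, c * (y : Matrix ι ι F) = (y : Matrix ι ι F) * c) :
    ∀ z ∈ env L, c * z = z * c := by
  intro z hz
  have hle : env L ≤ Subalgebra.centralizer F ({c} : Set (Matrix ι ι F)) := by
    apply Algebra.adjoin_le
    rintro _ ⟨y, hy, rfl⟩
    rw [SetLike.mem_coe, Subalgebra.mem_centralizer_iff]
    intro d hd
    rw [Set.mem_singleton_iff] at hd
    rw [hd]
    exact hc y hy
  have := (Subalgebra.mem_centralizer_iff F).1 (hle hz) c (Set.mem_singleton c)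
  exact this

/-- LCEN. -/
theorem cen_env_scal (N L : Subgroup (GL ι F)) (habs : ActsAbsolutelyIrreducibly (matrixSet N))
    (hfac : ∀ x ∈ N, ∃ q ∈ L, ∃ c : GL ι F, (∀ y ∈ L, c * y = y * c) ∧ x = q * c) : IsScal (cen (env L)) := by
  intro z hz
  obtain ⟨hzE, hzC⟩ := hz
  apply habs.2
  rintro _ ⟨x, hx, rfl⟩
  obtain ⟨q, hq, c, hc, rfl⟩ := hfac x hx
  have h1 : z * (q : Matrix ι ι F) = (q : Matrix ι ι F) * z := by
    have hqE : (q : Matrix ι ι F) ∈ env L := Algebra.subset_adjoin ⟨q, hq, rfl⟩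
    exact ((Subalgebra.mem_centralizer_iff F).1 hzC _ hqE).symm
  have h2 : (c : Matrix ι ι F) * z = z * (c : Matrix ι ι F) := by
    apply lcen_comm_env L _ _ z hzE
    intro y hy
    rw [← Units.val_mul, hc y hy, Units.val_mul]
  change z * ((q * c : GL ι F) : Matrix ι ι F) = ((q * c : GL ι F) : Matrix ι ι F) * z
  rw [Units.val_mul, ← mul_assoc, h1, mul_assoc, ← h2, mul_assoc]

end Cfsg.Agent.Lib.Lead.OG
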