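import Cfsg.Agent.Lib.Lead.OG.Defs
import Cfsg.Agent.Lib.Helper80.AS.TMUL

set_option autoImplicit false

namespace Cfsg.Agent.Lib.Lead.OG

open Cfsg Cfsg.Geo QuadraticMap
open Cfsg.Agent.Lib.Helper77.Asch (NormBy MinOver)
open Cfsg.Agent.Lib.Helper80.AS (env cen IsScal IsComm SelfAdj Projs tmat IsLeftFactor GramTensor)
open Cfsg.Agent.Lib.Helper77.AschG (pt slot fp)
open scoped MatrixGroups Matrix Kronecker

variable {ι : Type} [Fintype ι] [DecidableEq ι] {F : Type*} [Field F]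

/-- PHI. -/
theorem exists_phi {s k : ℕ} (e₀ : ι ≃ Fin s × Fin k) (P₀ g : GL ι F) :
    ∃ φ : Matrix (Fin s) (Fin s) F →ₐ[F] Matrix ι ι F, ∀ x, φ x =
      (g : Matrix ι ι F) * tmat e₀ P₀ (x ⊗ₖ (1 : Matrix (Fin k) (Fin k) F)) * ((g⁻¹ : GL ι F) : Matrix ι ι F) := by
  have hgi : ((g⁻¹ : GL ι F) : Matrix ι ι F) * (g : Matrix ι ι F) = 1 := by
    rw [← Units.val_mul, inv_mul_cancel, Units.val_one]
  have hig : (g : Matrix ι ι F) * ((g⁻¹ : GL ι F) : Matrix ι ι F) = 1 := by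
    rw [← Units.val_mul, mul_inv_cancel, Units.val_one]
  refine ⟨AlgHom.ofLinearMap
    { toFun := fun x => (g : Matrix ι ι F) * tmat e₀ P₀ (x ⊗ₖ (1 : Matrix (Fin k) (Fin k) F)) *
        ((g⁻¹ : GL ι F) : Matrix ι ι F)
      map_add' := ?_
      map_smul' := ?_ } ?_ ?_, fun x => rfl⟩
  · intro x y
    rw [Matrix.add_kronecker, Cfsg.Agent.Lib.Helper80.AS.tmat_add, mul_add, add_mul]
  · intro c x
    rw [Matrix.smul_kronecker, Cfsg.Agent.Lib.Helper80.AS.tmat_smul, RingHom.id_apply, Matrix.mul_smul,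
      Matrix.smul_mul]
  · change (g : Matrix ι ι F) * tmat e₀ P₀ ((1 : Matrix (Fin s) (Fin s) F) ⊗ₖ (1 : Matrix (Fin k) (Fin k) F)) *
        ((g⁻¹ : GL ι F) : Matrix ι ι F) = 1
    rw [Matrix.one_kronecker_one, Cfsg.Agent.Lib.Helper80.AS.tmat_one, mul_one, hig]
  · intro x y
    change (g : Matrix ι ι F) * tmat e₀ P₀ ((x * y) ⊗ₖ (1 : Matrix (Fin k) (Fin k) F)) *
        ((g⁻¹ : GL ι F) : Matrix ι ι F) =
      ((g : Matrix ι ι F) * tmat e₀ P₀ (x ⊗ₖ (1 : Matrix (Fin k) (Fin k) F)) * ((g⁻¹ : GL ι F) : Matrix ι ι F)) *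
      ((g : Matrix ι ι F) * tmat e₀ P₀ (y ⊗ₖ (1 : Matrix (Fin k) (Fin k) F)) * ((g⁻¹ : GL ι F) : Matrix ι ι F))
    have h1 : (x * y) ⊗ₖ (1 : Matrix (Fin k) (Fin k) F) =
        (x ⊗ₖ (1 : Matrix (Fin k) (Fin k) F)) * (y ⊗ₖ (1 : Matrix (Fin k) (Fin k) F)) := by
      rw [← Matrix.mul_kronecker_mul, one_mul]
    rw [h1, Cfsg.Agent.Lib.Helper80.AS.tmat_mul]
    calc (g : Matrix ι ι F) * (tmat e₀ P₀ (x ⊗ₖ (1 : Matrix (Fin k) (Fin k) F)) *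
          tmat e₀ P₀ (y ⊗ₖ (1 : Matrix (Fin k) (Fin k) F))) * ((g⁻¹ : GL ι F) : Matrix ι ι F)
        = (g : Matrix ι ι F) * tmat e₀ P₀ (x ⊗ₖ (1 : Matrix (Fin k) (Fin k) F)) * 1 *
          tmat e₀ P₀ (y ⊗ₖ (1 : Matrix (Fin k) (Fin k) F)) * ((g⁻¹ : GL ι F) : Matrix ι ι F) := by
          simp only [mul_one, mul_assoc]
      _ = _ := by
          rw [← hgi]
          simp only [mul_assoc]

end Cfsg.Agent.Lib.Lead.OG
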