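import Cfsg.Agent.Lib.Lead.OG.Defs
import Cfsg.Agent.Lib.Helper77.AschG.TB1

/-! Ladder OG, rung TBA: commuting embeddings of `M_a(F)` into `M_ι(F)` give an embedding of the tensor power. -/

set_option autoImplicit false

namespace Cfsg.Agent.Lib.Lead.OG

open Cfsg Cfsg.Geo QuadraticMap
open Cfsg.Agent.Lib.Helper77.Asch (NormBy MinOver)
open Cfsg.Agent.Lib.Helper80.AS (env cen IsScal IsComm SelfAdj Projs tmat IsLeftFactor GramTensor)
open Cfsg.Agent.Lib.Helper77.AschG (pt slot fp)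
open scoped MatrixGroups Matrix Kronecker

variable {ι : Type} [Fintype ι] [DecidableEq ι] {F : Type*} [Field F]

theorem exists_tensor_hom_i {a k : ℕ} (φ : Fin k → (Matrix (Fin a) (Fin a) F →ₐ[F] Matrix ι ι F))
    (hcomm : ∀ i j, i ≠ j → ∀ x y, φ i x * φ j y = φ j y * φ i x) :
    ∃ Ψ : Matrix (Fin k → Fin a) (Fin k → Fin a) F →ₐ[F] Matrix ι ι F, ∀ i x, Ψ (slot i x) = φ i x := by
  let ε : ι ≃ Fin (Fintype.card ι) := Fintype.equivFin ι
  let R : Matrix ι ι F ≃ₐ[F] Matrix (Fin (Fintype.card ι)) (Fin (Fintype.card ι)) F :=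
    Matrix.reindexAlgEquiv F F ε
  obtain ⟨Ψ, hΨ⟩ := Cfsg.Agent.Lib.Helper77.AschG.exists_tensor_hom
    (n := Fintype.card ι) (fun i => R.toAlgHom.comp (φ i)) (by
      intro i j hij x y
      show R (φ i x) * R (φ j y) = R (φ j y) * R (φ i x)
      rw [← map_mul, ← map_mul, hcomm i j hij])
  refine ⟨R.symm.toAlgHom.comp Ψ, fun i x => ?_⟩
  show R.symm (Ψ (slot i x)) = φ i x
  rw [hΨ]
  show R.symm (R (φ i x)) = φ i x
  exact R.symm_apply_apply _

end Cfsg.Agent.Lib.Lead.OG
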