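import Cfsg.Agent.Lib.Lead.OG.Defs

/-! Ladder OG, rung TBB: a surjective algebra hom from the tensor power onto `M_ι(F)` forces `card ι = a ^ k`. -/

set_option autoImplicit false

namespace Cfsg.Agent.Lib.Lead.OG

open Cfsg Cfsg.Geo QuadraticMap
open Cfsg.Agent.Lib.Helper77.Asch (NormBy MinOver)
open Cfsg.Agent.Lib.Helper80.AS (env cen IsScal IsComm SelfAdj Projs tmat IsLeftFactor GramTensor)
open Cfsg.Agent.Lib.Helper77.AschG (pt slot fp)
open scoped MatrixGroups Matrix Kronecker

variable {ι : Type} [Fintype ι] [DecidableEq ι] {F : Type*} [Field F]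

theorem card_of_surj [Nonempty ι] {a k : ℕ} (Ψ : Matrix (Fin k → Fin a) (Fin k → Fin a) F →ₐ[F] Matrix ι ι F)
    (hs : Function.Surjective Ψ) : Fintype.card ι = a ^ k := by
  have hne : Nonempty (Fin k → Fin a) := by
    by_contra hemp
    rw [not_nonempty_iff] at hemp
    have h01 : (0 : Matrix (Fin k → Fin a) (Fin k → Fin a) F) = 1 := Subsingleton.elim _ _
    have : (0 : Matrix ι ι F) = 1 := by
      rw [← map_zero Ψ, ← map_one Ψ, h01]
    exact zero_ne_one this
  have hinj : Function.Injective Ψ := Ψ.toRingHom.injective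
  let E : Matrix (Fin k → Fin a) (Fin k → Fin a) F ≃ₗ[F] Matrix ι ι F :=
    LinearEquiv.ofBijective Ψ.toLinearMap ⟨hinj, hs⟩
  have hfin := E.finrank_eq
  rw [Module.finrank_matrix, Module.finrank_matrix] at hfin
  simp only [Module.finrank_self, mul_one, Fintype.card_pi_const, Fintype.card_fin] at hfin
  have h2 : (Fintype.card ι) ^ 2 = (a ^ k) ^ 2 := by
    rw [pow_two, pow_two]; exact hfin.symm
  exact Nat.pow_left_injective (n := 2) (by norm_num) h2

end Cfsg.Agent.Lib.Lead.OG
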