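import Cfsg.Agent.Lib.Lead.OG.Defs
import Cfsg.Agent.Lib.Helper77.AschG.WN0

set_option autoImplicit false

namespace Cfsg.Agent.Lib.Lead.OG

open Cfsg Cfsg.Geo QuadraticMap
open Cfsg.Agent.Lib.Helper77.Asch (NormBy MinOver)
open Cfsg.Agent.Lib.Helper80.AS (env cen IsScal IsComm SelfAdj Projs tmat IsLeftFactor GramTensor)
open Cfsg.Agent.Lib.Helper77.AschG (pt slot fp)
open Cfsg.Agent.Lib.Helper77.AschG (mem_tensorWreathStandard)
open scoped MatrixGroups Matrix Kronecker

variable {ι : Type} [Fintype ι] [DecidableEq ι] {F : Type*} [Field F]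

theorem wn1i_reindex_symm {a k : ℕ} (e : ι ≃ (Fin k → Fin a)) (h : GL ι F) :
    glReindex e.symm (glReindex e h) = h := by
  apply Units.ext
  ext i j
  simp [glReindex]

theorem wn1i_rho {a k : ℕ} (e : ι ≃ (Fin k → Fin a)) (M : Matrix (Fin k → Fin a) (Fin k → Fin a) F) :
    Matrix.reindexAlgEquiv F F e (Matrix.reindex e.symm e.symm M) = M := by
  ext i j
  simp

/-- WN1I (port of Helper77/AschG/WN1.lean to a general index type). -/
theorem mem_tensorWreath_i {a k : ℕ} (hk : 0 < k) (e : ι ≃ (Fin k → Fin a)) (P g : GL ι F)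
    (σ : Equiv.Perm (Fin k))
    (hg : ∀ i x, ∃ y, (g : Matrix ι ι F) * twi e P (slot i x) * ((g⁻¹ : GL ι F) : Matrix ι ι F)
      = twi e P (slot (σ i) y)) :
    g ∈ tensorWreathSubgroup a k e P := by
  have hPP : ((P⁻¹ : GL ι F) : Matrix ι ι F) * (P : Matrix ι ι F) = 1 := by
    rw [← Units.val_mul, inv_mul_cancel, Units.val_one]
  have hstd : glReindex e (P⁻¹ * g * P) ∈ tensorWreathStandard a k F := by
    apply mem_tensorWreathStandard hk _ σ
    intro i x
    obtain ⟨y, hy⟩ := hg i x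
    refine ⟨y, ?_⟩
    have h1 : ((glReindex e (P⁻¹ * g * P) : GL (Fin k → Fin a) F) : Matrix (Fin k → Fin a) (Fin k → Fin a) F)
        = Matrix.reindexAlgEquiv F F e ((P⁻¹ * g * P : GL ι F) : Matrix ι ι F) := rfl
    have h2 : (((glReindex e (P⁻¹ * g * P))⁻¹ : GL (Fin k → Fin a) F) : Matrix (Fin k → Fin a) (Fin k → Fin a) F)
        = Matrix.reindexAlgEquiv F F e (((P⁻¹ * g * P)⁻¹ : GL ι F) : Matrix ι ι F) := by
      rw [← map_inv]; rfl
    have h3 : ((P⁻¹ * g * P : GL ι F) : Matrix ι ι F) *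
        Matrix.reindex e.symm e.symm (slot i x) * (((P⁻¹ * g * P)⁻¹ : GL ι F) : Matrix ι ι F)
        = Matrix.reindex e.symm e.symm (slot (σ i) y) := by
      unfold twi at hy
      calc ((P⁻¹ * g * P : GL ι F) : Matrix ι ι F) *
            Matrix.reindex e.symm e.symm (slot i x) * (((P⁻¹ * g * P)⁻¹ : GL ι F) : Matrix ι ι F)
          = ((P⁻¹ : GL ι F) : Matrix ι ι F) * ((g : Matrix ι ι F) *
              ((P : Matrix ι ι F) * Matrix.reindex e.symm e.symm (slot i x) *
                ((P⁻¹ : GL ι F) : Matrix ι ι F)) *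
              ((g⁻¹ : GL ι F) : Matrix ι ι F)) * (P : Matrix ι ι F) := by
            simp only [mul_inv_rev, inv_inv, Units.val_mul, mul_assoc]
        _ = ((P⁻¹ : GL ι F) : Matrix ι ι F) * ((P : Matrix ι ι F) *
              Matrix.reindex e.symm e.symm (slot (σ i) y) *
                ((P⁻¹ : GL ι F) : Matrix ι ι F)) * (P : Matrix ι ι F) := by
            rw [hy]
        _ = (((P⁻¹ : GL ι F) : Matrix ι ι F) * (P : Matrix ι ι F)) *
              Matrix.reindex e.symm e.symm (slot (σ i) y) *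
                (((P⁻¹ : GL ι F) : Matrix ι ι F) * (P : Matrix ι ι F)) := by
            simp only [mul_assoc]
        _ = _ := by rw [hPP, one_mul, mul_one]
    have h4 := congrArg (Matrix.reindexAlgEquiv F F e) h3
    rw [map_mul, map_mul, wn1i_rho, wn1i_rho] at h4
    rw [h1, h2]
    exact h4
  refine ⟨glReindex e.symm (glReindex e (P⁻¹ * g * P)), ⟨_, hstd, rfl⟩, ?_⟩
  rw [wn1i_reindex_symm]
  show P * (P⁻¹ * g * P) * P⁻¹ = g
  group

end Cfsg.Agent.Lib.Lead.OG
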