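import Cfsg.Agent.Lib.Lead.OG.Defs

set_option autoImplicit false

namespace Cfsg.Agent.Lib.Lead.OG

open Cfsg Cfsg.Geo QuadraticMap
open Cfsg.Agent.Lib.Helper77.Asch (NormBy MinOver)
open Cfsg.Agent.Lib.Helper80.AS (env cen IsScal IsComm SelfAdj Projs tmat IsLeftFactor GramTensor)
open Cfsg.Agent.Lib.Helper77.AschG (pt slot fp)
open scoped MatrixGroups Matrix Kronecker

variable {ι : Type} [Fintype ι] [DecidableEq ι] {F : Type*} [Field F]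

theorem adjc_cancel (g : GL ι F) (w : ι → F) :
    (g : Matrix ι ι F) *ᵥ (((g⁻¹ : GL ι F) : Matrix ι ι F) *ᵥ w) = w := by
  rw [Matrix.mulVec_mulVec, ← Units.val_mul, mul_inv_cancel, Units.val_one, Matrix.one_mulVec]

/-- ADJC. -/
theorem adj_conj (f : (ι → F) → (ι → F) → F) (g : GL ι F)
    (hg : ∀ u v, f ((g : Matrix ι ι F) *ᵥ u) ((g : Matrix ι ι F) *ᵥ v) = f u v) (A A' : Matrix ι ι F)
    (hA : ∀ u v, f (A *ᵥ u) v = f u (A' *ᵥ v)) (u v : ι → F) :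
    f (((g : Matrix ι ι F) * A * ((g⁻¹ : GL ι F) : Matrix ι ι F)) *ᵥ u) v =
      f u (((g : Matrix ι ι F) * A' * ((g⁻¹ : GL ι F) : Matrix ι ι F)) *ᵥ v) := by
  have h1 : ((g : Matrix ι ι F) * A * ((g⁻¹ : GL ι F) : Matrix ι ι F)) *ᵥ u =
      (g : Matrix ι ι F) *ᵥ (A *ᵥ (((g⁻¹ : GL ι F) : Matrix ι ι F) *ᵥ u)) := by
    simp only [Matrix.mulVec_mulVec, mul_assoc]
  have h2 : ((g : Matrix ι ι F) * A' * ((g⁻¹ : GL ι F) : Matrix ι ι F)) *ᵥ v =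
      (g : Matrix ι ι F) *ᵥ (A' *ᵥ (((g⁻¹ : GL ι F) : Matrix ι ι F) *ᵥ v)) := by
    simp only [Matrix.mulVec_mulVec, mul_assoc]
  rw [h1, h2]
  calc f ((g : Matrix ι ι F) *ᵥ (A *ᵥ (((g⁻¹ : GL ι F) : Matrix ι ι F) *ᵥ u))) v
      = f ((g : Matrix ι ι F) *ᵥ (A *ᵥ (((g⁻¹ : GL ι F) : Matrix ι ι F) *ᵥ u)))
          ((g : Matrix ι ι F) *ᵥ (((g⁻¹ : GL ι F) : Matrix ι ι F) *ᵥ v)) := by rw [adjc_cancel]
    _ = f (A *ᵥ (((g⁻¹ : GL ι F) : Matrix ι ι F) *ᵥ u)) (((g⁻¹ : GL ι F) : Matrix ι ι F) *ᵥ v) := hg _ _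
    _ = f (((g⁻¹ : GL ι F) : Matrix ι ι F) *ᵥ u) (A' *ᵥ (((g⁻¹ : GL ι F) : Matrix ι ι F) *ᵥ v)) := hA _ _
    _ = f ((g : Matrix ι ι F) *ᵥ (((g⁻¹ : GL ι F) : Matrix ι ι F) *ᵥ u))
          ((g : Matrix ι ι F) *ᵥ (A' *ᵥ (((g⁻¹ : GL ι F) : Matrix ι ι F) *ᵥ v))) := (hg _ _).symm
    _ = f u ((g : Matrix ι ι F) *ᵥ (A' *ᵥ (((g⁻¹ : GL ι F) : Matrix ι ι F) *ᵥ v))) := by rw [adjc_cancel]

end Cfsg.Agent.Lib.Lead.OG
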