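import Cfsg.Agent.Lib.Lead.OG.Defs

set_option autoImplicit false

namespace Cfsg.Agent.Lib.Lead.OG

open Cfsg Cfsg.Geo QuadraticMap
open Cfsg.Agent.Lib.Helper77.Asch (NormBy MinOver)
open Cfsg.Agent.Lib.Helper80.AS (env cen IsScal IsComm SelfAdj Projs tmat IsLeftFactor GramTensor)
open Cfsg.Agent.Lib.Helper77.AschG (pt slot fp)
open scoped MatrixGroups Matrix Kronecker

variable {ι : Type} [Fintype ι] [DecidableEq ι] {F : Type*} [Field F]

/-- FMAX. -/
theorem mem_of_comm_field [Nonempty ι] (K : Subalgebra F (Matrix ι ι F))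
    (hK : IsFieldSubalgebra (Fintype.card ι) K) (c : Matrix ι ι F) (hc : ∀ k ∈ K, c * k = k * c) : c ∈ K := by
  classical
  obtain ⟨i₀⟩ := ‹Nonempty ι›
  set v : ι → F := Pi.single i₀ 1 with hv
  have hv0 : v ≠ 0 := by
    intro h
    have := congrFun h i₀
    simp [hv] at this
  let φ : K →ₗ[F] (ι → F) :=
    { toFun := fun k => (k : Matrix ι ι F) *ᵥ v
      map_add' := fun a b => by simp [Matrix.add_mulVec]
      map_smul' := fun a b => by simp [Matrix.smul_mulVec] }
  have hinj : Function.Injective φ := by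
    rw [← LinearMap.ker_eq_bot, LinearMap.ker_eq_bot']
    intro k hk
    by_contra hk0
    have hk0' : (k : Matrix ι ι F) ≠ 0 := fun h => hk0 (Subtype.ext h)
    obtain ⟨y, hy, hky⟩ := hK.inv k k.2 hk0'
    have hyk : y * (k : Matrix ι ι F) = 1 := by rw [hK.comm y hy k k.2, hky]
    have h1 : (k : Matrix ι ι F) *ᵥ v = 0 := hk
    have h2 : y *ᵥ ((k : Matrix ι ι F) *ᵥ v) = 0 := by rw [h1, Matrix.mulVec_zero]
    rw [Matrix.mulVec_mulVec, hyk, Matrix.one_mulVec] at h2
    exact hv0 h2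
  have hsurj : Function.Surjective φ := by
    have hfr : Module.finrank F K = Module.finrank F (ι → F) := by
      rw [hK.finrank_eq, Module.finrank_fintype_fun_eq_card]
    exact (LinearMap.injective_iff_surjective_of_finrank_eq_finrank hfr).mp hinj
  obtain ⟨k₀, hk₀⟩ := hsurj (c *ᵥ v)
  have hk₀' : (k₀ : Matrix ι ι F) *ᵥ v = c *ᵥ v := hk₀
  have hce : c = (k₀ : Matrix ι ι F) := by
    apply Matrix.toLin'.injective
    apply LinearMap.ext
    intro w
    obtain ⟨k, hk⟩ := hsurj w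
    have hk' : (k : Matrix ι ι F) *ᵥ v = w := hk
    rw [Matrix.toLin'_apply, Matrix.toLin'_apply, ← hk', Matrix.mulVec_mulVec, Matrix.mulVec_mulVec,
      hc k k.2, hK.comm k₀ k₀.2 k k.2, ← Matrix.mulVec_mulVec, ← Matrix.mulVec_mulVec, hk₀']
  rw [hce]
  exact k₀.2

end Cfsg.Agent.Lib.Lead.OG
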