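import Cfsg.Agent.Lib.Lead.OG.Defs
import Cfsg.Agent.Lib.Lead.OG.FMAX

set_option autoImplicit false

namespace Cfsg.Agent.Lib.Lead.OG

open Cfsg Cfsg.Geo QuadraticMap
open Cfsg.Agent.Lib.Helper77.Asch (NormBy MinOver)
open Cfsg.Agent.Lib.Helper80.AS (env cen IsScal IsComm SelfAdj Projs tmat IsLeftFactor GramTensor)
open Cfsg.Agent.Lib.Helper77.AschG (pt slot fp)
open scoped MatrixGroups Matrix Kronecker

variable {ι : Type} [Fintype ι] [DecidableEq ι] {F : Type*} [Field F]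

/-- C3N. -/
theorem field_deg_ne [Nonempty ι] (f : (ι → F) → (ι → F) → F) (hf : IsSymmetricForm f)
    (K : Subalgebra F (Matrix ι ι F)) (r : ℕ) (hK : IsFieldSubalgebra r K) (hsa : IsSelfAdjointFor f K)
    (N : Subgroup (GL ι F)) (hfix : FixesForm (matrixSet N) f)
    (hcomm : ∀ x ∈ N, ∀ k ∈ K, (x : Matrix ι ι F) * k = k * (x : Matrix ι ι F))
    (hNZ : N ⊓ scalars ι F = ⊥) (hN : N ≠ ⊥) : Fintype.card ι ≠ r := by
  intro hr
  subst hr
  apply hN
  rw [Subgroup.eq_bot_iff_forall]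
  intro x hx
  set X : Matrix ι ι F := (x : Matrix ι ι F) with hX
  have hXK : X ∈ K := mem_of_comm_field K hK X (hcomm x hx)
  have hXX : X * X = 1 := by
    apply Matrix.mulVec_injective
    funext v
    rw [← Matrix.mulVec_mulVec, Matrix.one_mulVec]
    by_contra hne
    have hw : X *ᵥ (X *ᵥ v) + (-1 : F) • v ≠ 0 := by
      intro h0
      apply hne
      have : X *ᵥ (X *ᵥ v) = X *ᵥ (X *ᵥ v) + (-1 : F) • v + v := by
        rw [add_assoc, neg_one_smul, neg_add_cancel, add_zero]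
      rw [this, h0, zero_add]
    obtain ⟨⟨u, hu⟩, -⟩ := hf.nondegenerate _ hw
    apply hu
    rw [hf.bilinear.add_right, hf.bilinear.smul_right, ← hsa X hXK u (X *ᵥ v),
      hfix X ⟨x, hx, rfl⟩ u v]
    ring
  have h1K : (1 : Matrix ι ι F) ∈ K := K.one_mem
  have hprod : (X - 1) * (X + 1) = 0 := by
    rw [sub_mul, mul_add, hXX, mul_one, one_mul]
    abel
  by_cases hX1 : X - 1 = 0
  · apply Units.ext
    rw [Units.val_one]
    exact sub_eq_zero.1 hX1
  · obtain ⟨y, hyK, hy⟩ := hK.inv (X - 1) (K.sub_mem hXK h1K) hX1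
    have hy' : y * (X - 1) = 1 := by rw [hK.comm y hyK _ (K.sub_mem hXK h1K)]; exact hy
    have hX2 : X + 1 = 0 := by
      calc X + 1 = (y * (X - 1)) * (X + 1) := by rw [hy', one_mul]
        _ = y * ((X - 1) * (X + 1)) := by rw [mul_assoc]
        _ = 0 := by rw [hprod, mul_zero]
    have hsc : x ∈ scalars ι F := by
      rw [mem_scalars_iff]
      refine ⟨-1, ?_⟩
      rw [Units.val_neg, Units.val_one, neg_one_smul]
      exact eq_neg_of_add_eq_zero_left hX2
    have : x ∈ N ⊓ scalars ι F := ⟨hx, hsc⟩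
    rw [hNZ] at this
    exact this

end Cfsg.Agent.Lib.Lead.OG
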