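import Cfsg.Agent.Lib.Lead.OG.Defs

set_option autoImplicit false

namespace Cfsg.Agent.Lib.Lead.OG

open Cfsg Cfsg.Geo QuadraticMap
open Cfsg.Agent.Lib.Helper77.Asch (NormBy MinOver)
open Cfsg.Agent.Lib.Helper80.AS (env cen IsScal IsComm SelfAdj Projs tmat IsLeftFactor GramTensor)
open Cfsg.Agent.Lib.Helper77.AschG (pt slot fp)
open scoped MatrixGroups Matrix Kronecker

variable {ι : Type} [Fintype ι] [DecidableEq ι] {F : Type*} [Field F]

theorem chb2_form {κ : Type} [Fintype κ] (G : Matrix κ κ F) (x y : κ → F) :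
    formOfGram id G x y = x ⬝ᵥ G *ᵥ y := by
  unfold formOfGram
  simp only [dotProduct, Matrix.mulVec, Finset.mul_sum, id, mul_assoc]

theorem chb2_dot {κ : Type} [Fintype κ] (s G : Matrix κ κ F) (u v : κ → F) :
    (s *ᵥ u) ⬝ᵥ (G *ᵥ (s *ᵥ v)) = u ⬝ᵥ ((sᵀ * G * s) *ᵥ v) := by
  rw [← Matrix.mulVec_mulVec, ← Matrix.mulVec_mulVec, Matrix.dotProduct_mulVec u sᵀ,
    Matrix.vecMul_transpose]

theorem chb2_reindex {s k : ℕ} (e : ι ≃ Fin s × Fin k)
    (X : Matrix (Fin s × Fin k) (Fin s × Fin k) F) (x : Fin s × Fin k → F) :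
    (Matrix.reindexAlgEquiv F F e.symm X) *ᵥ (x ∘ e) = (X *ᵥ x) ∘ e := by
  funext i
  simp only [Matrix.mulVec, dotProduct, Function.comp_apply, Matrix.coe_reindexAlgEquiv,
    Matrix.reindex_apply, Matrix.submatrix_apply, Equiv.symm_symm]
  exact Equiv.sum_comp e (fun p => X (e i) p * x p)

/-- CHB2. -/
theorem tensor_change_basis (f : (ι → F) → (ι → F) → F) {s k : ℕ} (e : ι ≃ Fin s × Fin k) (P : GL ι F)
    (J₁ : Matrix (Fin s) (Fin s) F) (J₂ : Matrix (Fin k) (Fin k) F) (hJ : GramTensor f e P J₁ J₂) (b : GL (Fin k) F) :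
    ∃ P' : GL ι F, GramTensor f e P' J₁
        (((b⁻¹ : GL (Fin k) F) : Matrix (Fin k) (Fin k) F)ᵀ * J₂ * ((b⁻¹ : GL (Fin k) F) : Matrix (Fin k) (Fin k) F)) ∧
      tensorProductSubgroup s k e P' = tensorProductSubgroup s k e P := by
  set bi : Matrix (Fin k) (Fin k) F := ((b⁻¹ : GL (Fin k) F) : Matrix (Fin k) (Fin k) F) with hbi
  set bm : Matrix (Fin k) (Fin k) F := (b : Matrix (Fin k) (Fin k) F) with hbm
  have h1 : ((1 : Matrix (Fin s) (Fin s) F) ⊗ₖ bi) * ((1 : Matrix (Fin s) (Fin s) F) ⊗ₖ bm) = 1 := by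
    rw [← Matrix.mul_kronecker_mul, hbi, hbm, ← Units.val_mul, inv_mul_cancel, Units.val_one, mul_one,
      Matrix.one_kronecker_one]
  have h2 : ((1 : Matrix (Fin s) (Fin s) F) ⊗ₖ bm) * ((1 : Matrix (Fin s) (Fin s) F) ⊗ₖ bi) = 1 := by
    rw [← Matrix.mul_kronecker_mul, hbi, hbm, ← Units.val_mul, mul_inv_cancel, Units.val_one, mul_one,
      Matrix.one_kronecker_one]
  let Bu : GL (Fin s × Fin k) F := ⟨_, _, h1, h2⟩
  have hBu : Bu ∈ kroneckerSubgroup s k F := ⟨1, b⁻¹, by simp [Bu, hbi]⟩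
  set R : GL ι F := glReindex e.symm Bu with hR
  set K : Subgroup (GL ι F) := (kroneckerSubgroup s k F).map (glReindex e.symm).toMonoidHom with hK
  have hRK : R ∈ K := ⟨Bu, hBu, rfl⟩
  refine ⟨P * R, ?_, ?_⟩
  · intro x y
    have h3 : ∀ z : Fin s × Fin k → F, ((P * R : GL ι F) : Matrix ι ι F) *ᵥ (z ∘ e)
        = (P : Matrix ι ι F) *ᵥ ((((1 : Matrix (Fin s) (Fin s) F) ⊗ₖ bi) *ᵥ z) ∘ e) := by
      intro z
      rw [Units.val_mul, ← Matrix.mulVec_mulVec, ← chb2_reindex]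
      rfl
    rw [h3, h3, hJ, chb2_form, chb2_form, chb2_dot]
    congr 2
    rw [← Matrix.kroneckerMap_transpose, Matrix.transpose_one, ← Matrix.mul_kronecker_mul,
      ← Matrix.mul_kronecker_mul, one_mul, mul_one]
  · change K.map (MulAut.conj (P * R)).toMonoidHom = K.map (MulAut.conj P).toMonoidHom
    ext g
    constructor
    · rintro ⟨x, hx, rfl⟩
      refine ⟨R * x * R⁻¹, K.mul_mem (K.mul_mem hRK hx) (K.inv_mem hRK), ?_⟩
      simp only [MulEquiv.coe_toMonoidHom, MulAut.conj_apply]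
      group
    · rintro ⟨x, hx, rfl⟩
      refine ⟨R⁻¹ * x * R, K.mul_mem (K.mul_mem (K.inv_mem hRK) hx) hRK, ?_⟩
      simp only [MulEquiv.coe_toMonoidHom, MulAut.conj_apply]
      group

end Cfsg.Agent.Lib.Lead.OG
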