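import Cfsg.Agent.Lib.Lead.OG.Defs

set_option autoImplicit false

namespace Cfsg.Agent.Lib.Lead.OG

open Cfsg Cfsg.Geo QuadraticMap
open Cfsg.Agent.Lib.Helper77.Asch (NormBy MinOver)
open Cfsg.Agent.Lib.Helper80.AS (env cen IsScal IsComm SelfAdj Projs tmat IsLeftFactor GramTensor)
open Cfsg.Agent.Lib.Helper77.AschG (pt slot fp)
open scoped MatrixGroups Matrix Kronecker

variable {ι : Type} [Fintype ι] [DecidableEq ι] {F : Type*} [Field F]

theorem g2p_gram {s : ℕ} (J : Matrix (Fin s) (Fin s) F) (a b : Fin s) :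
    gramMatrix (gf J) a b = J a b := by
  simp [gramMatrix, gf]

/-- G2P. -/
theorem power_struct_of_gram (f : (ι → F) → (ι → F) → F) {a : ℕ} (e : ι ≃ Fin a × Fin a) (P : GL ι F)
    (J : Matrix (Fin a) (Fin a) F) (c : F) (hc : c ≠ 0) (hJ : GramTensor f e P J (c • J)) :
    IsTensorPowerFormStructure id f (gf J) (e.trans (finTwoArrowEquiv (Fin a)).symm) P := by
  refine ⟨c, hc, fun x y => ?_⟩
  have h1 := hJ (x ∘ (finTwoArrowEquiv (Fin a)).symm) (y ∘ (finTwoArrowEquiv (Fin a)).symm)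
  have hx : (x ∘ (finTwoArrowEquiv (Fin a)).symm) ∘ e =
      x ∘ (e.trans (finTwoArrowEquiv (Fin a)).symm) := by
    funext i; rfl
  have hy : (y ∘ (finTwoArrowEquiv (Fin a)).symm) ∘ e =
      y ∘ (e.trans (finTwoArrowEquiv (Fin a)).symm) := by
    funext i; rfl
  rw [hx, hy] at h1
  rw [h1]
  unfold formOfGram
  rw [← Equiv.sum_comp (finTwoArrowEquiv (Fin a)), Finset.mul_sum]
  refine Finset.sum_congr rfl fun p _ => ?_
  rw [← Equiv.sum_comp (finTwoArrowEquiv (Fin a)), Finset.mul_sum]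
  refine Finset.sum_congr rfl fun r _ => ?_
  have hp : (finTwoArrowEquiv (Fin a)) p = (p 0, p 1) := rfl
  have hr : (finTwoArrowEquiv (Fin a)) r = (r 0, r 1) := rfl
  simp only [Function.comp_apply, Equiv.symm_apply_apply]
  simp only [hp, hr, Matrix.kroneckerMap_apply,
    Fin.prod_univ_two, g2p_gram, Matrix.smul_apply, smul_eq_mul, id]
  ring

end Cfsg.Agent.Lib.Lead.OG
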