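import Cfsg.Agent.Lib.Lead.OG.Defs

set_option autoImplicit false

namespace Cfsg.Agent.Lib.Lead.OG

open Cfsg Cfsg.Geo QuadraticMap
open Cfsg.Agent.Lib.Helper77.Asch (NormBy MinOver)
open Cfsg.Agent.Lib.Helper80.AS (env cen IsScal IsComm SelfAdj Projs tmat IsLeftFactor GramTensor)
open Cfsg.Agent.Lib.Helper77.AschG (pt slot fp)
open scoped MatrixGroups Matrix Kronecker

variable {ι : Type} [Fintype ι] [DecidableEq ι] {F : Type*} [Field F]

theorem gf_isSymmetric {s : ℕ} (J : Matrix (Fin s) (Fin s) F) (hJ : Jᵀ = J) (hd : J.det ≠ 0) :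
    IsSymmetricForm (gf J) := by
  have hsymm : ∀ u v, gf J u v = gf J v u := by
    intro u v
    unfold gf
    rw [Matrix.dotProduct_mulVec, ← Matrix.mulVec_transpose, hJ, dotProduct_comm]
  have hnd : ∀ v : Fin s → F, v ≠ 0 → ∃ x, gf J x v ≠ 0 := by
    intro v hv
    by_contra hcon
    push Not at hcon
    apply hv
    have h0 : J *ᵥ v = 0 := by
      funext i
      have := hcon (Pi.single i 1)
      unfold gf at this
      rwa [single_dotProduct, one_mul] at this
    exact (Matrix.eq_zero_of_mulVec_eq_zero hd h0)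
  refine ⟨⟨fun x y v => ?_, fun c x v => ?_, fun v x y => ?_, fun c v x => ?_⟩, hsymm, fun v hv => ?_⟩
  · unfold gf; rw [add_dotProduct]
  · unfold gf; rw [smul_dotProduct, smul_eq_mul]
  · unfold gf; rw [Matrix.mulVec_add, dotProduct_add]
  · unfold gf; rw [Matrix.mulVec_smul, dotProduct_smul, smul_eq_mul]
  · obtain ⟨x, hx⟩ := hnd v hv
    exact ⟨⟨x, hx⟩, ⟨x, by rw [hsymm]; exact hx⟩⟩

theorem gramMatrix_gf {s : ℕ} (J : Matrix (Fin s) (Fin s) F) : gramMatrix (gf J) = J := by
  funext a b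
  unfold gramMatrix gf
  rw [single_dotProduct, one_mul]
  simp

end Cfsg.Agent.Lib.Lead.OG
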