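import Cfsg.Agent.Lib.Lead.OG.Defs
import Cfsg.Agent.S0144

set_option autoImplicit false

namespace Cfsg.Agent.Lib.Lead.OG

open Cfsg Cfsg.Geo QuadraticMap
open scoped MatrixGroups Matrix Kronecker

variable {ι : Type} [Fintype ι] [DecidableEq ι] {F : Type*} [Field F]

/-- GL23S.  `|GL_2(F_3)| = 48 = 2^4 * 3`; Burnside. -/
theorem solvable_gl_two_three [Fintype F] (hq : Fintype.card F = 3) : Group.IsSolvable (GL (Fin 2) F) := by
  have hc : Nat.card (GL (Fin 2) F) = 2 ^ 4 * 3 ^ 1 := by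
    rw [Matrix.card_GL_field, hq]
    decide
  exact Cfsg.Agent.S0144.result 2 3 4 1 Nat.prime_two Nat.prime_three hc

end Cfsg.Agent.Lib.Lead.OG
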