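import Cfsg.Agent.Lib.Lead.OG.Defs

set_option autoImplicit false

namespace Cfsg.Agent.Lib.Lead.OG

open Cfsg Cfsg.Geo QuadraticMap
open Cfsg.Agent.Lib.Helper77.Asch (NormBy MinOver)
open Cfsg.Agent.Lib.Helper80.AS (env cen IsScal IsComm SelfAdj Projs tmat IsLeftFactor GramTensor)
open Cfsg.Agent.Lib.Helper77.AschG (pt slot fp)
open scoped MatrixGroups Matrix Kronecker

variable {ι : Type} [Fintype ι] [DecidableEq ι] {F : Type*} [Field F]

theorem iso_injective (h : GL ι F) : Function.Injective (Matrix.toLin' (h : Matrix ι ι F)) := by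
  intro u v huv
  have h1 : ((h⁻¹ : GL ι F) : Matrix ι ι F) *ᵥ ((h : Matrix ι ι F) *ᵥ u)
      = ((h⁻¹ : GL ι F) : Matrix ι ι F) *ᵥ ((h : Matrix ι ι F) *ᵥ v) := by
    rw [Matrix.toLin'_apply, Matrix.toLin'_apply] at huv
    rw [huv]
  rwa [Matrix.mulVec_mulVec, Matrix.mulVec_mulVec, ← Units.val_mul, inv_mul_cancel, Units.val_one,
    Matrix.one_mulVec, Matrix.one_mulVec] at h1

/-- ISO. -/
theorem orth_decomp_of_trans (Q : QuadraticForm F (ι → F)) (H : Subgroup (GL ι F))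
    (hfix : FixesQuadForm (matrixSet H) Q) {t d : ℕ} (D : Fin t → Submodule F (ι → F))
    (hD : IsNondegenerateMDecomposition (polar Q) d D)
    (htr : ∀ i j, ∃ h ∈ H, (D i).map (Matrix.toLin' (h : Matrix ι ι F)) = D j) :
    IsOrthogonalMDecomposition Q d D := by
  refine ⟨hD, fun i j => ?_⟩
  obtain ⟨h, hh, hmap⟩ := htr i j
  refine ⟨(Submodule.equivMapOfInjective (Matrix.toLin' (h : Matrix ι ι F)) (iso_injective h) (D i)).trans
    (LinearEquiv.ofEq _ _ hmap), fun w => ?_⟩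
  have h1 : ((((Submodule.equivMapOfInjective (Matrix.toLin' (h : Matrix ι ι F)) (iso_injective h) (D i)).trans
    (LinearEquiv.ofEq _ _ hmap)) w : D j) : ι → F) = (h : Matrix ι ι F) *ᵥ (w : ι → F) := by
    simp [Matrix.toLin'_apply]
  rw [h1]
  exact hfix _ ⟨h, hh, rfl⟩ _

end Cfsg.Agent.Lib.Lead.OG
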