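import Cfsg.Agent.Lib.Lead.OG.Main
import Cfsg.Agent.Lib.Lead.OG.GL23S
import Cfsg.Agent.Lib.Helper80.AS.TFORM
import Cfsg.Agent.Lib.Helper80.AS.TSIGN
import Cfsg.Agent.Lib.Helper80.AS.ABSR

set_option autoImplicit false
set_option linter.unusedSectionVars false
set_option linter.style.haveILetI false

namespace Cfsg.Agent.Lib.Lead.OG

open Cfsg Cfsg.Geo QuadraticMap
open Cfsg.Agent.Lib.Helper77.Asch (NormBy MinOver)
open Cfsg.Agent.Lib.Helper80.AS (env cen IsScal IsComm SelfAdj Projs tmat IsLeftFactor GramTensor)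
open Cfsg.Agent.Lib.Helper77.AschG (pt slot fp)
open Cfsg.Agent.Lib.Helper80 Cfsg.Agent.Lib.Helper11 Cfsg.Agent.Lib.Helper77
open scoped MatrixGroups Matrix Kronecker

variable {ι : Type} [Fintype ι] [DecidableEq ι] {F : Type*} [Field F]

/-- `adj_conj` for similitudes. -/
theorem adj_conj_sim (f : (ι → F) → (ι → F) → F) (g : GL ι F) (hg : g ∈ similarityGroup f) (A A' : Matrix ι ι F)
    (hA : ∀ u v, f (A *ᵥ u) v = f u (A' *ᵥ v)) (u v : ι → F) :
    f (((g : Matrix ι ι F) * A * ((g⁻¹ : GL ι F) : Matrix ι ι F)) *ᵥ u) v =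
      f u (((g : Matrix ι ι F) * A' * ((g⁻¹ : GL ι F) : Matrix ι ι F)) *ᵥ v) := by
  obtain ⟨c, hc⟩ := hg
  have hgg : ∀ w : ι → F, (g : Matrix ι ι F) *ᵥ (((g⁻¹ : GL ι F) : Matrix ι ι F) *ᵥ w) = w := by
    intro w
    rw [Matrix.mulVec_mulVec, ← Units.val_mul, mul_inv_cancel, Units.val_one, Matrix.one_mulVec]
  have h1 : f (((g : Matrix ι ι F) * A * ((g⁻¹ : GL ι F) : Matrix ι ι F)) *ᵥ u) v
      = (c : F) * f (A *ᵥ (((g⁻¹ : GL ι F) : Matrix ι ι F) *ᵥ u)) (((g⁻¹ : GL ι F) : Matrix ι ι F) *ᵥ v) := by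
    rw [← hc, hgg, Matrix.mulVec_mulVec, Matrix.mulVec_mulVec, mul_assoc]
  have h2 : f u (((g : Matrix ι ι F) * A' * ((g⁻¹ : GL ι F) : Matrix ι ι F)) *ᵥ v)
      = (c : F) * f (((g⁻¹ : GL ι F) : Matrix ι ι F) *ᵥ u) (A' *ᵥ (((g⁻¹ : GL ι F) : Matrix ι ι F) *ᵥ v)) := by
    rw [← hc, hgg, Matrix.mulVec_mulVec, Matrix.mulVec_mulVec, mul_assoc]
  rw [h1, h2, hA]

theorem absIrr_mono_i {S T : Set (Matrix ι ι F)} (h : S ⊆ T) (hS : ActsAbsolutelyIrreducibly S) :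
    ActsAbsolutelyIrreducibly T :=
  ⟨fun W hW => hS.1 W (fun s hs => hW s (h hs)), fun M hM => hS.2 M (fun s hs => hM s (h hs))⟩

/-- the left factor gives a faithful representation (no form needed). -/
theorem leftFactor_hom [Nonempty ι] (N : Subgroup (GL ι F)) {s k : ℕ} (e : ι ≃ Fin s × Fin k) (P : GL ι F)
    (hB : IsLeftFactor (env N) e P) : ∃ ρ : N →* GL (Fin s) F, Function.Injective ρ := by
  obtain ⟨ρ, hρ, -⟩ := leftFactor_rep (fun _ _ => (0 : F)) N (fun _ _ _ _ => rfl) e P hB 0 1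
    (by intro x y; simp [formOfGram]) (by simp)
  exact ⟨ρ, hρ⟩

/-- the tensor-induced case for a symplectic form (similitudes, `Z` = scalars). -/
theorem induced_sp [Fintype F] [Nonempty ι] (f : (ι → F) → (ι → F) → F) (hf : IsSymplecticForm f)
    (Γ N : Subgroup (GL ι F)) (hΓ : Γ ≤ similarityGroup f) (hm : MinOver Γ (scalars ι F) N)
    (hnab : ¬ ⁅N, N⁆ ≤ scalars ι F) (hNabs : ActsAbsolutelyIrreducibly (matrixSet N))
    (hns : ¬ ∀ M : Subgroup (GL ι F), scalars ι F ≤ M → M ≤ N → NormBy N M → M = scalars ι F ∨ M = N) :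
    ∃ (s t : ℕ) (e : ι ≃ (Fin t → Fin s)) (P : GL ι F) (J : Matrix (Fin s) (Fin s) F), 2 ≤ s ∧ 2 ≤ t ∧
      J.det ≠ 0 ∧ (Jᵀ = J ∨ Jᵀ = -J) ∧ ¬ (Fintype.card F = 3 ∧ s = 2) ∧
      IsTensorPowerFormStructure id f (gf J) e P ∧ Γ ≤ tensorWreathSubgroup s t e P := by
  classical
  have hNH : N ≤ Γ := hm.le
  have hZc : ∀ z ∈ scalars ι F, ∀ g : GL ι F, g * z = z * g := fun z hz g => AschO.scalars_central z hz g
  obtain ⟨L, t, g, ht2, hgH, hLN, hLZ, hLnorm, hcomm, hgen, hfac, hperm⟩ :=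
    AschG.exists_commuting_conj' Γ (scalars ι F) N hZc hm hnab hns
  have hcen := cen_env_scal N L hNabs hfac
  obtain ⟨s, k', e₀, P₀, hB⟩ := AS.exists_leftFactor N hNabs.1 (env L) (AS.env_norm N L hLnorm) hcen
  have hcard : Fintype.card ι = s * k' := by
    rw [Fintype.card_congr e₀, Fintype.card_prod, Fintype.card_fin, Fintype.card_fin]
  have hs0 : s ≠ 0 := by
    rintro rfl
    have : 0 < Fintype.card ι := Fintype.card_pos
    omega
  have hs1 : s ≠ 1 := by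
    rintro rfl
    exact hLZ (AS.le_scalars_of_env L (AS.scal_of_leftFactor_one (env L) e₀ P₀ hB))
  obtain ⟨J₁, J₂, hJ⟩ := AS.tensor_gram f hf (env L) e₀ P₀ hB
    (AS.env_adj f hf.bilinear L ((hLN.trans hNH).trans hΓ))
  obtain ⟨d1, d2, hsg⟩ := AS.tensor_sign f hf e₀ P₀ J₁ J₂ hJ
  have t1 : J₁ᵀ = J₁ ∨ J₁ᵀ = -J₁ := by
    rcases hsg with h | h
    · exact Or.inl h.1
    · exact Or.inr h.1
  have hex : ¬ (Fintype.card F = 3 ∧ s = 2) := by
    rintro ⟨hq, rfl⟩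
    obtain ⟨ρ, hρ⟩ := leftFactor_hom L e₀ P₀ hB
    haveI := solvable_gl_two_three (F := F) hq
    have hsolv : Group.IsSolvable L := solvable_of_solvable_injective hρ
    exact hLZ (Asch.ag2_alpha Γ (scalars ι F) N hZc hm hnab L hLN hLnorm hsolv)
  choose φ hφ using fun i => exists_phi e₀ P₀ (g i)
  have hgi : ∀ (z : GL ι F) (y : Matrix ι ι F), ((z⁻¹ : GL ι F) : Matrix ι ι F) * ((z : Matrix ι ι F) * y *
      ((z⁻¹ : GL ι F) : Matrix ι ι F)) * (z : Matrix ι ι F) = y := by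
    intro z y
    have h1 : ((z⁻¹ : GL ι F) : Matrix ι ι F) * (z : Matrix ι ι F) = 1 := by
      rw [← Units.val_mul, inv_mul_cancel, Units.val_one]
    calc _ = (((z⁻¹ : GL ι F) : Matrix ι ι F) * (z : Matrix ι ι F)) * y *
          (((z⁻¹ : GL ι F) : Matrix ι ι F) * (z : Matrix ι ι F)) := by simp only [Matrix.mul_assoc]
      _ = y := by rw [h1, Matrix.one_mul, Matrix.mul_one]
  have hgi' : ∀ (z : GL ι F) (y : Matrix ι ι F), (z : Matrix ι ι F) * (((z⁻¹ : GL ι F) : Matrix ι ι F) * y *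
      (z : Matrix ι ι F)) * ((z⁻¹ : GL ι F) : Matrix ι ι F) = y := by
    intro z y
    have h1 : (z : Matrix ι ι F) * ((z⁻¹ : GL ι F) : Matrix ι ι F) = 1 := by
      rw [← Units.val_mul, mul_inv_cancel, Units.val_one]
    calc _ = ((z : Matrix ι ι F) * ((z⁻¹ : GL ι F) : Matrix ι ι F)) * y *
          ((z : Matrix ι ι F) * ((z⁻¹ : GL ι F) : Matrix ι ι F)) := by simp only [Matrix.mul_assoc]
      _ = y := by rw [h1, Matrix.one_mul, Matrix.mul_one]
  have hmemφ : ∀ i x, φ i x ∈ env (L.map (MulAut.conj (g i)).toMonoidHom) := by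
    intro i x
    rw [env_conj_iff, hφ, hgi]
    exact (hB _).2 ⟨x, rfl⟩
  have hrange : ∀ i y, y ∈ env (L.map (MulAut.conj (g i)).toMonoidHom) → ∃ x, y = φ i x := by
    intro i y hy
    rw [env_conj_iff] at hy
    obtain ⟨x, hx⟩ := (hB _).1 hy
    refine ⟨x, ?_⟩
    rw [hφ, ← hx, hgi']
  have hcomm' : ∀ i j, i ≠ j → ∀ x y, φ i x * φ j y = φ j y * φ i x := by
    intro i j hij x y
    refine env_comm _ _ ?_ _ (hmemφ i x) _ (hmemφ j y)
    rintro _ ⟨a, ha, rfl⟩ _ ⟨b, hb, rfl⟩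
    exact hcomm i j hij a ha b hb
  obtain ⟨Ψ, hΨ⟩ := exists_tensor_hom_i φ hcomm'
  have hsurj : Function.Surjective Ψ := by
    have habs' : ActsAbsolutelyIrreducibly (matrixSet (⨆ i, L.map (MulAut.conj (g i)).toMonoidHom)) := by
      apply AS.absIrr_of_sup
      refine absIrr_mono_i ?_ hNabs
      rintro _ ⟨x, hx, rfl⟩
      exact ⟨x, hgen x hx, rfl⟩
    have htop := adjoin_top_of_gen _ habs' (fun i => L.map (MulAut.conj (g i)).toMonoidHom) le_rfl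
    rw [← AlgHom.range_eq_top, eq_top_iff, ← htop]
    apply Algebra.adjoin_le
    intro y hy
    obtain ⟨i, hi⟩ := Set.mem_iUnion.1 hy
    obtain ⟨x, rfl⟩ := hrange i y hi
    exact ⟨slot i x, hΨ i x⟩
  have hc := card_of_surj Ψ hsurj
  obtain ⟨e, P, hP⟩ := tensor_basis_of_hom_i hc Ψ
  have hslot : ∀ i x, twi e P (slot i x) = φ i x := by
    intro i x
    rw [← hP, hΨ]
  have hle : Γ ≤ tensorWreathSubgroup s t e P := by
    intro h hh
    obtain ⟨σ, hσ⟩ := hperm h hh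
    refine mem_tensorWreath_i (by omega) e P h σ (fun i x => ?_)
    have h1 : (h : Matrix ι ι F) * φ i x * ((h⁻¹ : GL ι F) : Matrix ι ι F) ∈
        env (L.map (MulAut.conj (g (σ i))).toMonoidHom) := by
      rw [← hσ i, env_conj_iff, hφ]
      have h3 : (((h * g i)⁻¹ : GL ι F) : Matrix ι ι F) * ((h : Matrix ι ι F) * ((g i : Matrix ι ι F) *
          tmat e₀ P₀ (x ⊗ₖ (1 : Matrix (Fin k') (Fin k') F)) * (((g i)⁻¹ : GL ι F) : Matrix ι ι F)) *
          ((h⁻¹ : GL ι F) : Matrix ι ι F)) * ((h * g i : GL ι F) : Matrix ι ι F) =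
          tmat e₀ P₀ (x ⊗ₖ (1 : Matrix (Fin k') (Fin k') F)) := by
        have e1 : (h : Matrix ι ι F) * ((g i : Matrix ι ι F) *
            tmat e₀ P₀ (x ⊗ₖ (1 : Matrix (Fin k') (Fin k') F)) * (((g i)⁻¹ : GL ι F) : Matrix ι ι F)) *
            ((h⁻¹ : GL ι F) : Matrix ι ι F) = ((h * g i : GL ι F) : Matrix ι ι F) *
            tmat e₀ P₀ (x ⊗ₖ (1 : Matrix (Fin k') (Fin k') F)) * (((h * g i)⁻¹ : GL ι F) : Matrix ι ι F) := by
          rw [mul_inv_rev, Units.val_mul, Units.val_mul]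
          simp only [Matrix.mul_assoc]
        rw [e1, hgi]
      rw [h3]
      exact (hB _).2 ⟨x, rfl⟩
    obtain ⟨y, hy⟩ := hrange (σ i) _ h1
    exact ⟨y, by rw [hslot, hslot, hy]⟩
  have hadj : ∀ i x u v, f (twi e P (slot i x) *ᵥ u) v =
      f u (twi e P (slot i (J₁⁻¹ * xᵀ * J₁)) *ᵥ v) := by
    intro i x u v
    rw [hslot, hslot, hφ, hφ]
    exact adj_conj_sim f (g i) (hΓ (hgH i)) _ _ (adj_leftFactor f e₀ P₀ J₁ J₂ hJ d1 x) u v
  have hst := gram_power f hf.bilinear hf.nondegenerate e P J₁ d1 hadj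
  exact ⟨s, t, e, P, J₁, by omega, ht2, d1, t1, hex, hst, hle⟩

end Cfsg.Agent.Lib.Lead.OG
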