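import Cfsg.Agent.Lib.Lead.OG.Defs
import Cfsg.Agent.Lib.Helper80.AS.TMUL
import Cfsg.Agent.Lib.Helper80.AS.TSIGN

/-! Ladder OG, rung LFI: the representation of `N` on the left tensor factor. -/

set_option autoImplicit false

namespace Cfsg.Agent.Lib.Lead.OG

open Cfsg Cfsg.Geo QuadraticMap
open Cfsg.Agent.Lib.Helper77.Asch (NormBy MinOver)
open Cfsg.Agent.Lib.Helper80.AS (env cen IsScal IsComm SelfAdj Projs tmat IsLeftFactor GramTensor)
open Cfsg.Agent.Lib.Helper80.AS (tmat_mul tmat_one tmat_injective tmat_mulVec tsign_single tsign_mulVec)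
open Cfsg.Agent.Lib.Helper77.AschG (pt slot fp)
open scoped MatrixGroups Matrix Kronecker

variable {ι : Type} [Fintype ι] [DecidableEq ι] {F : Type*} [Field F]

theorem lfi_form {κ : Type} [Fintype κ] (G A : Matrix κ κ F) (x y : κ → F) :
    formOfGram id G (A *ᵥ x) (A *ᵥ y) = formOfGram id (Aᵀ * G * A) x y := by
  rw [tsign_mulVec, tsign_mulVec]
  change (A *ᵥ x) ⬝ᵥ (G *ᵥ (A *ᵥ y)) = x ⬝ᵥ ((Aᵀ * G * A) *ᵥ y)
  rw [← Matrix.mulVec_mulVec, ← Matrix.mulVec_mulVec, Matrix.dotProduct_mulVec x, Matrix.vecMul_transpose]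

/-- LFI. -/
theorem leftFactor_rep [Nonempty ι] (f : (ι → F) → (ι → F) → F) (N : Subgroup (GL ι F))
    (hfix : FixesForm (matrixSet N) f) {s k : ℕ} (e : ι ≃ Fin s × Fin k) (P : GL ι F)
    (hB : IsLeftFactor (env N) e P) (J₁ : Matrix (Fin s) (Fin s) F) (J₂ : Matrix (Fin k) (Fin k) F)
    (hJ : GramTensor f e P J₁ J₂) (d2 : J₂.det ≠ 0) :
    ∃ ρ : N →* GL (Fin s) F, Function.Injective ρ ∧ ∀ x : N,
      ((ρ x : GL (Fin s) F) : Matrix (Fin s) (Fin s) F)ᵀ * J₁ * ((ρ x : GL (Fin s) F) : Matrix (Fin s) (Fin s) F) = J₁ := by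
  classical
  obtain ⟨p0⟩ : Nonempty (Fin k) := ⟨(e (Classical.arbitrary ι)).2⟩
  have hkinj : ∀ a b : Matrix (Fin s) (Fin s) F,
      a ⊗ₖ (1 : Matrix (Fin k) (Fin k) F) = b ⊗ₖ (1 : Matrix (Fin k) (Fin k) F) → a = b := by
    intro a b hab
    ext i j
    have := congrFun (congrFun hab (i, p0)) (j, p0)
    simpa [Matrix.kroneckerMap_apply] using this
  have hmem : ∀ x : N, ∃ a : Matrix (Fin s) (Fin s) F,
      ((x : GL ι F) : Matrix ι ι F) = tmat e P (a ⊗ₖ (1 : Matrix (Fin k) (Fin k) F)) := by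
    intro x
    exact (hB _).1 (Algebra.subset_adjoin ⟨x, x.2, rfl⟩)
  choose a ha using hmem
  have hinj2 : ∀ u v : Matrix (Fin s) (Fin s) F, tmat e P (u ⊗ₖ (1 : Matrix (Fin k) (Fin k) F)) =
      tmat e P (v ⊗ₖ (1 : Matrix (Fin k) (Fin k) F)) → u = v :=
    fun u v h => hkinj _ _ (tmat_injective e P h)
  let φ : N →* Matrix (Fin s) (Fin s) F :=
    { toFun := a
      map_one' := by
        apply hinj2
        rw [← ha, Matrix.one_kronecker_one, tmat_one]; rfl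
      map_mul' := by
        intro x y
        apply hinj2
        rw [← ha, ← mul_one (1 : Matrix (Fin k) (Fin k) F), Matrix.mul_kronecker_mul, tmat_mul,
          ← ha, ← ha]
        rfl }
  refine ⟨φ.toHomUnits, ?_, ?_⟩
  · intro x y hxy
    have h1 : a x = a y := by
      have := congrArg (fun g : GL (Fin s) F => (g : Matrix (Fin s) (Fin s) F)) hxy
      exact this
    apply Subtype.ext; apply Units.ext
    rw [ha x, ha y, h1]
  · intro x
    change (a x)ᵀ * J₁ * a x = J₁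
    have hx : ∀ u v, f (((x : GL ι F) : Matrix ι ι F) *ᵥ u) (((x : GL ι F) : Matrix ι ι F) *ᵥ v) = f u v :=
      hfix _ ⟨x, x.2, rfl⟩
    have hG : ((a x ⊗ₖ (1 : Matrix (Fin k) (Fin k) F))ᵀ * (J₁ ⊗ₖ J₂) *
        (a x ⊗ₖ (1 : Matrix (Fin k) (Fin k) F))) = J₁ ⊗ₖ J₂ := by
      ext p q
      rw [← tsign_single ((a x ⊗ₖ (1 : Matrix (Fin k) (Fin k) F))ᵀ * (J₁ ⊗ₖ J₂) *
        (a x ⊗ₖ (1 : Matrix (Fin k) (Fin k) F))) p q, ← lfi_form, ← hJ, ← tmat_mulVec, ← tmat_mulVec, ← ha, hx,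
        hJ, tsign_single]
    rw [← Matrix.kroneckerMap_transpose, ← Matrix.mul_kronecker_mul, ← Matrix.mul_kronecker_mul,
      Matrix.transpose_one, one_mul, mul_one] at hG
    obtain ⟨p, q, hpq⟩ : ∃ p q, J₂ p q ≠ 0 := by
      by_contra hcon
      apply d2
      have hJ0 : J₂ = 0 := by
        ext p q
        by_contra hne
        exact hcon ⟨p, q, hne⟩
      have : Nonempty (Fin k) := ⟨p0⟩
      rw [hJ0, Matrix.det_zero]
    ext i j
    have := congrFun (congrFun hG (i, p)) (j, q)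
    simp only [Matrix.kroneckerMap_apply] at this
    exact mul_right_cancel₀ hpq this

end Cfsg.Agent.Lib.Lead.OG
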