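import Cfsg.Agent.Lib.Lead.OG.Defs

/-! Ladder OG (lead), rung NDDO (helper56): port of AS/NDD `nondeg_decomp`. -/

set_option autoImplicit false

namespace Cfsg.Agent.Lib.Lead.OG

open Cfsg Cfsg.Geo QuadraticMap
open Cfsg.Agent.Lib.Helper77.Asch (NormBy MinOver)
open Cfsg.Agent.Lib.Helper80.AS (env cen IsScal IsComm SelfAdj Projs tmat IsLeftFactor GramTensor)
open scoped MatrixGroups Matrix Kronecker

variable {ι : Type} [Fintype ι] [DecidableEq ι] {F : Type*} [Field F]

/-- NDDO (port of AS/NDD.lean `nondeg_decomp`). -/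
theorem nondeg_decomp_sym (f : (ι → F) → (ι → F) → F) (hf : IsSymmetricForm f)
    (E₀ : Subalgebra F (Matrix ι ι F)) (hsa : ∀ x ∈ E₀, SelfAdj f x) {t d : ℕ}
    (D : Fin t → Submodule F (ι → F)) (hD : IsMDecomposition d D) (hp : Projs E₀ D) :
    IsNondegenerateMDecomposition f d D := by
  classical
  have hf0 : ∀ u, f u 0 = 0 := by
    intro u
    have := hf.bilinear.smul_right 0 u 0
    simpa using this
  refine ⟨hD, ?_, ?_⟩
  · intro i w hw hw0
    obtain ⟨e, heE, he1, he0⟩ := hp i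
    have hmem : ∀ x : ι → F, e *ᵥ x ∈ D i := by
      intro x
      have hx : x ∈ iSup D := by rw [hD.iSup_eq_top]; trivial
      induction hx using Submodule.iSup_induction' with
      | mem k y hy =>
        by_cases hk : k = i
        · subst hk
          rw [he1 y hy]; exact hy
        · rw [he0 k hk y hy]; exact Submodule.zero_mem _
      | zero => rw [Matrix.mulVec_zero]; exact Submodule.zero_mem _
      | add y z _ _ hy hz => rw [Matrix.mulVec_add]; exact Submodule.add_mem _ hy hz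
    obtain ⟨⟨x, hx⟩, _⟩ := hf.nondegenerate w hw0
    have h1 : f (e *ᵥ x) w ≠ 0 := by
      rw [hsa e heE x w, he1 w hw]; exact hx
    refine ⟨⟨e *ᵥ x, hmem x, h1⟩, ⟨e *ᵥ x, hmem x, ?_⟩⟩
    rw [hf.symm]
    exact h1
  · intro i j hij u hu v hv
    obtain ⟨e, heE, he1, he0⟩ := hp i
    rw [← he1 u hu, hsa e heE u v, he0 j (Ne.symm hij) v hv, hf0]

end Cfsg.Agent.Lib.Lead.OG
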