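import Cfsg.Agent.Lib.Lead.OG.Defs

set_option autoImplicit false

namespace Cfsg.Agent.Lib.Lead.OG

open Cfsg Cfsg.Geo QuadraticMap
open Cfsg.Agent.Lib.Helper77.Asch (NormBy MinOver)
open Cfsg.Agent.Lib.Helper80.AS (env cen IsScal IsComm SelfAdj Projs tmat IsLeftFactor GramTensor)
open Cfsg.Agent.Lib.Helper77.AschG (pt slot fp)
open scoped MatrixGroups Matrix Kronecker

variable {ι : Type} [Fintype ι] [DecidableEq ι] {F : Type*} [Field F]

theorem polar_isSymmetric (Q : QuadraticForm F (ι → F)) (hQ : (polarBilin Q).Nondegenerate) :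
    IsSymmetricForm (polar Q) := by
  have hnd : ∀ v : ι → F, v ≠ 0 → ∃ x, polar Q x v ≠ 0 := by
    intro v hv
    by_contra hcon
    push Not at hcon
    apply hv
    apply hQ.1 v
    intro y
    show polar Q v y = 0
    rw [polar_comm]
    exact hcon y
  refine ⟨⟨fun x y v => polar_add_left Q x y v, fun c x v => ?_, fun v x y => polar_add_right Q v x y,
    fun c v x => ?_⟩, fun u v => polar_comm Q u v, fun v hv => ?_⟩
  · rw [polar_smul_left, smul_eq_mul]
  · rw [polar_smul_right, smul_eq_mul]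
  · obtain ⟨x, hx⟩ := hnd v hv
    exact ⟨⟨x, hx⟩, ⟨x, by rw [polar_comm]; exact hx⟩⟩

theorem fixes_polar (Q : (ι → F) → F) (H : Subgroup (GL ι F)) (h : FixesQuadForm (matrixSet H) Q) :
    FixesForm (matrixSet H) (polar Q) := by
  intro s hs u v
  unfold polar
  rw [← Matrix.mulVec_add, h s hs, h s hs, h s hs]

theorem le_sim_of_fixes (f : (ι → F) → (ι → F) → F) (H : Subgroup (GL ι F)) (h : FixesForm (matrixSet H) f) :
    H ≤ similarityGroup f := by
  intro g hg
  refine ⟨1, fun u v => ?_⟩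
  rw [h (g : Matrix ι ι F) ⟨g, hg, rfl⟩ u v]
  simp

end Cfsg.Agent.Lib.Lead.OG
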