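import Mathlib

/-! Ladder OG, rung SIMA: diagonalisation of symmetric matrices in characteristic not two. -/

set_option autoImplicit false

namespace Cfsg.Agent.Lib.Lead.OG

open scoped MatrixGroups Matrix

variable {F : Type*} [Field F]

theorem exists_diag (h2 : (2 : F) ≠ 0) {s : ℕ} (J : Matrix (Fin s) (Fin s) F) (h : Jᵀ = J) (d : J.det ≠ 0) :
    ∃ (b : GL (Fin s) F) (w : Fin s → F), (∀ i, w i ≠ 0) ∧
      (b : Matrix (Fin s) (Fin s) F)ᵀ * J * (b : Matrix (Fin s) (Fin s) F) = Matrix.diagonal w := by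
  have : Invertible (2 : F) := invertibleOfNonzero h2
  have hsymm : LinearMap.IsSymm (Matrix.toBilin' J) := by
    rw [LinearMap.isSymm_def]
    intro x y
    simp only [Matrix.toBilin'_apply', RingHom.id_apply]
    rw [Matrix.dotProduct_mulVec, ← Matrix.mulVec_transpose, h, dotProduct_comm]
  obtain ⟨v0, hv0⟩ := LinearMap.BilinForm.exists_orthogonal_basis hsymm
  have hs : Module.finrank F (Fin s → F) = s := by simp
  set v : Module.Basis (Fin s) F (Fin s → F) := v0.reindex (finCongr hs) with hv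
  have hortho : ∀ i j, i ≠ j → v i ⬝ᵥ J *ᵥ v j = 0 := by
    intro i j hij
    have := hv0 (i := (finCongr hs).symm i) (j := (finCongr hs).symm j)
      (fun h => hij ((finCongr hs).symm.injective h))
    simpa [hv, Function.onFun, Matrix.toBilin'_apply'] using this
  have hinv : Invertible ((Pi.basisFun F (Fin s)).toMatrix v) :=
    (Pi.basisFun F (Fin s)).invertibleToMatrix v
  have hentry : ∀ i j, (((Pi.basisFun F (Fin s)).toMatrix v)ᵀ * J * (Pi.basisFun F (Fin s)).toMatrix v) i j
      = v i ⬝ᵥ J *ᵥ v j := by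
    intro i j
    rw [Matrix.mul_assoc, Matrix.mul_apply, dotProduct]
    refine Finset.sum_congr rfl fun k _ => ?_
    rw [Matrix.transpose_apply, Module.Basis.toMatrix_apply, Pi.basisFun_repr, Matrix.mul_apply,
      Matrix.mulVec, dotProduct]
    congr 1
  have heq : ((Pi.basisFun F (Fin s)).toMatrix v)ᵀ * J * (Pi.basisFun F (Fin s)).toMatrix v
      = Matrix.diagonal (fun i => v i ⬝ᵥ J *ᵥ v i) := by
    ext i j
    rw [hentry]
    by_cases hij : i = j
    · subst hij; simp
    · rw [hortho i j hij, Matrix.diagonal_apply_ne _ hij]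
  refine ⟨unitOfInvertible ((Pi.basisFun F (Fin s)).toMatrix v), fun i => v i ⬝ᵥ J *ᵥ v i, ?_, heq⟩
  have hdet := congrArg Matrix.det heq
  rw [Matrix.det_mul, Matrix.det_mul, Matrix.det_transpose, Matrix.det_diagonal] at hdet
  have hb : ((Pi.basisFun F (Fin s)).toMatrix v).det ≠ 0 :=
    ((Matrix.isUnit_iff_isUnit_det _).1 (isUnit_of_invertible _)).ne_zero
  have hprod : (∏ i, v i ⬝ᵥ J *ᵥ v i) ≠ 0 := by
    rw [← hdet]
    exact mul_ne_zero (mul_ne_zero hb d) hb
  intro i
  exact (Finset.prod_ne_zero_iff.1 hprod) i (Finset.mem_univ i)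

end Cfsg.Agent.Lib.Lead.OG
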