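import Mathlib

/-! Ladder OG, rung SIMB (Mathlib only). -/

set_option autoImplicit false

namespace Cfsg.Agent.Lib.Lead.OG

variable {F : Type*} [Field F]

/-- SIMB. -/
theorem exists_repr_one [Fintype F] (h2 : (2 : F) ≠ 0) (α β : F) (hα : α ≠ 0) (hβ : β ≠ 0) :
    ∃ x y : F, α * x ^ 2 + β * y ^ 2 = 1 := by
  have hchar : ringChar F ≠ 2 := by
    intro h
    apply h2
    have := ringChar.Nat.cast_ringChar (R := F)
    rw [h] at this
    exact_mod_cast this
  have hodd : Fintype.card F % 2 = 1 := FiniteField.odd_card_of_char_ne_two hchar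
  have hf : (Polynomial.C α * Polynomial.X ^ 2 : Polynomial F).degree = 2 :=
    Polynomial.degree_C_mul_X_pow 2 hα
  have hg : (Polynomial.C β * Polynomial.X ^ 2 - Polynomial.C 1 : Polynomial F).degree = 2 := by
    have hb : (Polynomial.C β * Polynomial.X ^ 2 : Polynomial F).degree = 2 :=
      Polynomial.degree_C_mul_X_pow 2 hβ
    rw [Polynomial.degree_sub_eq_left_of_degree_lt, hb]
    rw [hb]
    exact lt_of_le_of_lt Polynomial.degree_C_le (by norm_num)
  obtain ⟨a, b, hab⟩ := FiniteField.exists_root_sum_quadratic hf hg hodd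
  refine ⟨a, b, ?_⟩
  simp only [Polynomial.eval_mul, Polynomial.eval_C, Polynomial.eval_pow, Polynomial.eval_X,
    Polynomial.eval_sub] at hab
  linear_combination hab

end Cfsg.Agent.Lib.Lead.OG
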