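import Mathlib

/-! Ladder OG, rung SIMC: normal form of a diagonal symmetric form over a finite field of odd characteristic. -/

set_option autoImplicit false

namespace Cfsg.Agent.Lib.Lead.OG

open scoped MatrixGroups Matrix

variable {F : Type*} [Field F]

/-- a binary diagonal form over a finite field of odd characteristic represents `1`. -/
theorem simc_repr_one [Fintype F] (h2 : (2 : F) ≠ 0) (α β : F) (hα : α ≠ 0) (hβ : β ≠ 0) :
    ∃ x y : F, α * x ^ 2 + β * y ^ 2 = 1 := by
  have hchar : ringChar F ≠ 2 := by
    intro h
    apply h2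
    have := ringChar.Nat.cast_ringChar (R := F)
    rw [h] at this
    exact_mod_cast this
  have hodd := FiniteField.odd_card_of_char_ne_two hchar
  have hf : (Polynomial.C α * Polynomial.X ^ 2 : Polynomial F).degree = 2 :=
    Polynomial.degree_C_mul_X_pow 2 hα
  have hg : (Polynomial.C β * Polynomial.X ^ 2 - Polynomial.C 1 : Polynomial F).degree = 2 := by
    have h0 : (Polynomial.C β * Polynomial.X ^ 2 : Polynomial F).degree = 2 :=
      Polynomial.degree_C_mul_X_pow 2 hβ
    rw [Polynomial.degree_sub_eq_left_of_degree_lt, h0]
    rw [h0]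
    exact lt_of_le_of_lt Polynomial.degree_C_le (by norm_num)
  obtain ⟨a, b, hab⟩ := FiniteField.exists_root_sum_quadratic hf hg hodd
  refine ⟨a, b, ?_⟩
  simp only [Polynomial.eval_mul, Polynomial.eval_C, Polynomial.eval_pow, Polynomial.eval_X,
    Polynomial.eval_sub] at hab
  linear_combination hab

/-- the matrix of the change of two coordinates. -/
def simcG {n : ℕ} (i j : Fin n) (p q r s : F) : Matrix (Fin n) (Fin n) F :=
  Matrix.of fun a b =>
    if a = i then (if b = i then p else if b = j then q else 0)
    else if a = j then (if b = i then r else if b = j then s else 0)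
    else if a = b then 1 else 0

theorem simc_entry {n : ℕ} (g : Matrix (Fin n) (Fin n) F) (w : Fin n → F) (a b : Fin n) :
    (gᵀ * Matrix.diagonal w * g) a b = ∑ c, g c a * w c * g c b := by
  rw [Matrix.mul_apply]
  apply Finset.sum_congr rfl
  intro c _
  rw [Matrix.mul_diagonal, Matrix.transpose_apply]

theorem simc_step {n : ℕ} (w : Fin n → F) (i j : Fin n) (hij : i ≠ j) (x y : F)
    (hxy : w i * x ^ 2 + w j * y ^ 2 = 1) :
    (simcG i j x (-(w j * y)) y (w i * x))ᵀ * Matrix.diagonal w * simcG i j x (-(w j * y)) y (w i * x) =
      Matrix.diagonal (Function.update (Function.update w i 1) j (w i * w j)) := by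
  have hji : j ≠ i := hij.symm
  ext a b
  rw [simc_entry]
  by_cases hai : a = i
  · subst hai
    have hs : ∑ c, simcG a j x (-(w j * y)) y (w a * x) c a * w c *
        simcG a j x (-(w j * y)) y (w a * x) c b =
        simcG a j x (-(w j * y)) y (w a * x) a a * w a * simcG a j x (-(w j * y)) y (w a * x) a b +
        simcG a j x (-(w j * y)) y (w a * x) j a * w j * simcG a j x (-(w j * y)) y (w a * x) j b := by
      apply Fintype.sum_eq_add a j hij
      rintro c ⟨hc1, hc2⟩
      simp [simcG, hc1, hc2]
    rw [hs]
    by_cases hba : b = a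
    · subst hba
      simp only [simcG, Matrix.of_apply, if_true, if_neg hji, Matrix.diagonal_apply_eq,
        Function.update_of_ne hij, Function.update_self]
      linear_combination hxy
    · by_cases hbj : b = j
      · subst hbj
        simp only [simcG, Matrix.of_apply, if_true, if_neg hji,
          Matrix.diagonal_apply_ne _ hij]
        ring
      · simp only [simcG, Matrix.of_apply, if_true, if_neg hji, if_neg hba, if_neg hbj,
          Matrix.diagonal_apply_ne _ (Ne.symm hba)]
        ring
  · by_cases haj : a = j
    · subst haj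
      have hs : ∑ c, simcG i a x (-(w a * y)) y (w i * x) c a * w c *
          simcG i a x (-(w a * y)) y (w i * x) c b =
          simcG i a x (-(w a * y)) y (w i * x) i a * w i * simcG i a x (-(w a * y)) y (w i * x) i b +
          simcG i a x (-(w a * y)) y (w i * x) a a * w a * simcG i a x (-(w a * y)) y (w i * x) a b := by
        apply Fintype.sum_eq_add i a hij
        rintro c ⟨hc1, hc2⟩
        simp [simcG, hc1, hc2]
      rw [hs]
      by_cases hbi : b = i
      · subst hbi
        simp only [simcG, Matrix.of_apply, if_true, if_neg hai, Matrix.diagonal_apply_ne _ hai]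
        ring
      · by_cases hba : b = a
        · subst hba
          simp only [simcG, Matrix.of_apply, if_true, if_neg hai, Matrix.diagonal_apply_eq,
            Function.update_self]
          linear_combination (w i * w b) * hxy
        · simp only [simcG, Matrix.of_apply, if_true, if_neg hai, if_neg hbi, if_neg hba,
            Matrix.diagonal_apply_ne _ (Ne.symm hba)]
          ring
    · have hs : ∑ c, simcG i j x (-(w j * y)) y (w i * x) c a * w c *
          simcG i j x (-(w j * y)) y (w i * x) c b =
          simcG i j x (-(w j * y)) y (w i * x) a a * w a * simcG i j x (-(w j * y)) y (w i * x) a b := by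
        apply Fintype.sum_eq_single a
        intro c hc
        by_cases hc1 : c = i
        · simp [simcG, hc1, hai, haj]
        · by_cases hc2 : c = j
          · simp [simcG, hc2, hai, haj, hji]
          · simp [simcG, hc1, hc2, hc]
      rw [hs]
      by_cases hab : a = b
      · subst hab
        simp only [simcG, Matrix.of_apply, if_true, if_neg hai, if_neg haj, Matrix.diagonal_apply_eq,
          Function.update_of_ne hai, Function.update_of_ne haj]
        ring
      · simp only [simcG, Matrix.of_apply, if_true, if_neg hai, if_neg haj, if_neg hab,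
          Matrix.diagonal_apply_ne _ hab]
        ring

theorem simc_det_ne {n : ℕ} (b : Matrix (Fin n) (Fin n) F) (w v : Fin n → F) (hv : ∀ i, v i ≠ 0)
    (h : bᵀ * Matrix.diagonal w * b = Matrix.diagonal v) : b.det ≠ 0 := by
  intro h0
  have h1 := congrArg Matrix.det h
  rw [Matrix.det_mul, h0, mul_zero, Matrix.det_diagonal] at h1
  exact Finset.prod_ne_zero_iff.2 (fun i _ => hv i) h1.symm

theorem simc_ind [Fintype F] (h2 : (2 : F) ≠ 0) {s : ℕ} (w : Fin (s + 1) → F) (hw : ∀ i, w i ≠ 0)
    (k : ℕ) (hk : k ≤ s) :
    ∃ (b : Matrix (Fin (s + 1)) (Fin (s + 1)) F) (v : Fin (s + 1) → F), (∀ i, v i ≠ 0) ∧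
      (∀ i : Fin (s + 1), (i : ℕ) < k → v i = 1) ∧ bᵀ * Matrix.diagonal w * b = Matrix.diagonal v := by
  induction k with
  | zero => exact ⟨1, w, hw, fun i hi => absurd hi (Nat.not_lt_zero _), by simp⟩
  | succ k ih =>
    obtain ⟨b, v, hv, hv1, hb⟩ := ih (by omega)
    obtain ⟨i, hi⟩ : ∃ i : Fin (s + 1), (i : ℕ) = k := ⟨⟨k, by omega⟩, rfl⟩
    have hij : i ≠ Fin.last s := by
      intro h
      have := congrArg Fin.val h
      rw [hi, Fin.val_last] at this
      omega
    obtain ⟨x, y, hxy⟩ := simc_repr_one h2 (v i) (v (Fin.last s)) (hv _) (hv _)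
    refine ⟨b * simcG i (Fin.last s) x (-(v (Fin.last s) * y)) y (v i * x),
      Function.update (Function.update v i 1) (Fin.last s) (v i * v (Fin.last s)), ?_, ?_, ?_⟩
    · intro m
      by_cases hm : m = Fin.last s
      · rw [hm, Function.update_self]
        exact mul_ne_zero (hv _) (hv _)
      · rw [Function.update_of_ne hm]
        by_cases hmi : m = i
        · rw [hmi, Function.update_self]
          exact one_ne_zero
        · rw [Function.update_of_ne hmi]
          exact hv m
    · intro m hm
      have hml : m ≠ Fin.last s := by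
        intro h
        have := congrArg Fin.val h
        rw [Fin.val_last] at this
        omega
      rw [Function.update_of_ne hml]
      by_cases hmi : m = i
      · rw [hmi, Function.update_self]
      · rw [Function.update_of_ne hmi]
        apply hv1
        have : (m : ℕ) ≠ k := by
          intro h
          apply hmi
          apply Fin.ext
          rw [h, hi]
        omega
    · rw [← simc_step v i (Fin.last s) hij x y hxy, ← hb, Matrix.transpose_mul]
      simp only [Matrix.mul_assoc]

theorem diag_normal_form [Fintype F] (h2 : (2 : F) ≠ 0) {s : ℕ} (w : Fin (s + 1) → F) (hw : ∀ i, w i ≠ 0) :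
    ∃ (b : GL (Fin (s + 1)) F) (δ : F), δ ≠ 0 ∧
      (b : Matrix (Fin (s + 1)) (Fin (s + 1)) F)ᵀ * Matrix.diagonal w * (b : Matrix (Fin (s + 1)) (Fin (s + 1)) F) =
        Matrix.diagonal (Function.update (fun _ => (1 : F)) (Fin.last s) δ) := by
  obtain ⟨b, v, hv, hv1, hb⟩ := simc_ind h2 w hw s le_rfl
  refine ⟨Matrix.GeneralLinearGroup.mkOfDetNeZero b (simc_det_ne b w v hv hb), v (Fin.last s), hv _, ?_⟩
  have hvv : v = Function.update (fun _ => (1 : F)) (Fin.last s) (v (Fin.last s)) := by
    funext m
    by_cases hm : m = Fin.last s
    · rw [hm, Function.update_self]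
    · rw [Function.update_of_ne hm]
      apply hv1
      have h1 : (m : ℕ) ≠ s := by
        intro h
        apply hm
        apply Fin.ext
        rw [h, Fin.val_last]
      have h3 := m.2
      omega
  rw [← hvv]
  exact hb

end Cfsg.Agent.Lib.Lead.OG
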