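import Cfsg.Agent.Lib.Lead.OG.Defs
import Cfsg.Agent.Lib.Lead.OG.SIMA
import Cfsg.Agent.Lib.Lead.OG.SIMC

set_option autoImplicit false

namespace Cfsg.Agent.Lib.Lead.OG

open Cfsg Cfsg.Geo QuadraticMap
open Cfsg.Agent.Lib.Helper77.Asch (NormBy MinOver)
open Cfsg.Agent.Lib.Helper80.AS (env cen IsScal IsComm SelfAdj Projs tmat IsLeftFactor GramTensor)
open Cfsg.Agent.Lib.Helper77.AschG (pt slot fp)
open scoped MatrixGroups Matrix Kronecker

variable {ι : Type} [Fintype ι] [DecidableEq ι] {F : Type*} [Field F]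

theorem simd_normal [Fintype F] (h2 : (2 : F) ≠ 0) {s : ℕ} (J : Matrix (Fin (s + 1)) (Fin (s + 1)) F)
    (h : Jᵀ = J) (d : J.det ≠ 0) :
    ∃ (b : GL (Fin (s + 1)) F) (δ : F), δ ≠ 0 ∧
      (b : Matrix (Fin (s + 1)) (Fin (s + 1)) F)ᵀ * J * (b : Matrix (Fin (s + 1)) (Fin (s + 1)) F) =
        Matrix.diagonal (Function.update (fun _ => (1 : F)) (Fin.last s) δ) := by
  obtain ⟨b1, w, hw, hb1⟩ := exists_diag h2 J h d
  obtain ⟨b2, δ, hδ, hb2⟩ := diag_normal_form h2 w hw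
  refine ⟨b1 * b2, δ, hδ, ?_⟩
  rw [← hb2, ← hb1]
  simp only [Units.val_mul, Matrix.transpose_mul, Matrix.mul_assoc]

theorem simd_det {s : ℕ} (δ : F) :
    (Matrix.diagonal (Function.update (fun _ => (1 : F)) (Fin.last s) δ)).det = δ := by
  rw [Matrix.det_diagonal, Finset.prod_update_of_mem (Finset.mem_univ _)]
  simp

theorem simd_gl_det_ne {s : ℕ} (b : GL (Fin s) F) : (b : Matrix (Fin s) (Fin s) F).det ≠ 0 :=
  ((Matrix.isUnit_iff_isUnit_det _).1 b.isUnit).ne_zero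

theorem exists_similar [Fintype F] (h2 : (2 : F) ≠ 0) {s : ℕ} (hs : Odd s) (J J' : Matrix (Fin s) (Fin s) F)
    (h : Jᵀ = J) (h' : J'ᵀ = J') (d : J.det ≠ 0) (d' : J'.det ≠ 0) :
    ∃ (b : GL (Fin s) F) (c : F), c ≠ 0 ∧
      J' = c • ((b : Matrix (Fin s) (Fin s) F)ᵀ * J * (b : Matrix (Fin s) (Fin s) F)) := by
  obtain ⟨m, rfl⟩ := hs
  obtain ⟨b1, δ, hδ, hb1⟩ := simd_normal h2 J h d
  obtain ⟨b2, δ', hδ', hb2⟩ := simd_normal h2 J' h' d'
  obtain ⟨ν, hνdef⟩ : ∃ ν : F, ν = δ' / δ := ⟨_, rfl⟩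
  have hν : ν ≠ 0 := by rw [hνdef]; exact div_ne_zero hδ' hδ
  have hdν : (ν • J).det = ν ^ (2 * m + 1) * J.det := by
    rw [Matrix.det_smul, Fintype.card_fin]
  obtain ⟨b3, δ'', hδ'', hb3⟩ := simd_normal h2 (ν • J) (by rw [Matrix.transpose_smul, h])
    (by rw [hdν]; exact mul_ne_zero (pow_ne_zero _ hν) d)
  have n1 := simd_gl_det_ne b1
  have n3 := simd_gl_det_ne b3
  have e1 : (b1 : Matrix (Fin (2 * m + 1)) (Fin (2 * m + 1)) F).det ^ 2 * J.det = δ := by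
    have := congrArg Matrix.det hb1
    rw [simd_det, Matrix.det_mul, Matrix.det_mul, Matrix.det_transpose] at this
    rw [← this]; ring
  have e3 : (b3 : Matrix (Fin (2 * m + 1)) (Fin (2 * m + 1)) F).det ^ 2 * (ν ^ (2 * m + 1) * J.det) = δ'' := by
    have := congrArg Matrix.det hb3
    rw [simd_det, Matrix.det_mul, Matrix.det_mul, Matrix.det_transpose, hdν] at this
    rw [← this]; ring
  obtain ⟨μ, hμdef⟩ : ∃ μ : F, μ = (b1 : Matrix (Fin (2 * m + 1)) (Fin (2 * m + 1)) F).det /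
      ((b3 : Matrix (Fin (2 * m + 1)) (Fin (2 * m + 1)) F).det * ν ^ m) := ⟨_, rfl⟩
  have hμ : μ ≠ 0 := by
    rw [hμdef]; exact div_ne_zero n1 (mul_ne_zero n3 (pow_ne_zero _ hν))
  have hδμ : μ * δ'' * μ = δ' := by
    have hδ'2 : δ' = ν * δ := by rw [hνdef]; field_simp
    rw [hδ'2, ← e3, ← e1, hμdef]
    field_simp
    ring
  let t : GL (Fin (2 * m + 1)) F := Matrix.GeneralLinearGroup.mkOfDetNeZero
    (Matrix.diagonal (Function.update (fun _ => (1 : F)) (Fin.last (2 * m)) μ)) (by rw [simd_det]; exact hμ)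
  have ht : (t : Matrix (Fin (2 * m + 1)) (Fin (2 * m + 1)) F) =
    Matrix.diagonal (Function.update (fun _ => (1 : F)) (Fin.last (2 * m)) μ) := rfl
  have hN : (t : Matrix (Fin (2 * m + 1)) (Fin (2 * m + 1)) F)ᵀ *
      Matrix.diagonal (Function.update (fun _ => (1 : F)) (Fin.last (2 * m)) δ'') *
      (t : Matrix (Fin (2 * m + 1)) (Fin (2 * m + 1)) F) =
      Matrix.diagonal (Function.update (fun _ => (1 : F)) (Fin.last (2 * m)) δ') := by
    rw [ht, Matrix.diagonal_transpose, Matrix.diagonal_mul_diagonal, Matrix.diagonal_mul_diagonal]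
    congr 1
    funext i
    by_cases hi : i = Fin.last (2 * m)
    · subst hi; simp [hδμ]
    · simp [Function.update_of_ne hi]
  refine ⟨b3 * t * b2⁻¹, ν, hν, ?_⟩
  have k1 : ((b2⁻¹ : GL (Fin (2 * m + 1)) F) : Matrix (Fin (2 * m + 1)) (Fin (2 * m + 1)) F)ᵀ *
      (b2 : Matrix (Fin (2 * m + 1)) (Fin (2 * m + 1)) F)ᵀ = 1 := by
    rw [← Matrix.transpose_mul, ← Units.val_mul, mul_inv_cancel, Units.val_one, Matrix.transpose_one]
  have k2 : (b2 : Matrix (Fin (2 * m + 1)) (Fin (2 * m + 1)) F) *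
      ((b2⁻¹ : GL (Fin (2 * m + 1)) F) : Matrix (Fin (2 * m + 1)) (Fin (2 * m + 1)) F) = 1 := by
    rw [← Units.val_mul, mul_inv_cancel, Units.val_one]
  have k3 : J' = ((b2⁻¹ : GL (Fin (2 * m + 1)) F) : Matrix (Fin (2 * m + 1)) (Fin (2 * m + 1)) F)ᵀ *
      ((b2 : Matrix (Fin (2 * m + 1)) (Fin (2 * m + 1)) F)ᵀ * J' *
        (b2 : Matrix (Fin (2 * m + 1)) (Fin (2 * m + 1)) F)) *
      ((b2⁻¹ : GL (Fin (2 * m + 1)) F) : Matrix (Fin (2 * m + 1)) (Fin (2 * m + 1)) F) := by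
    rw [Matrix.mul_assoc, Matrix.mul_assoc, Matrix.mul_assoc, k2, Matrix.mul_one, ← Matrix.mul_assoc, k1,
      Matrix.one_mul]
  rw [k3, hb2, ← hN, ← hb3]
  simp only [Units.val_mul, Matrix.transpose_mul, Matrix.mul_assoc, Matrix.smul_mul, Matrix.mul_smul]

end Cfsg.Agent.Lib.Lead.OG
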