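import Cfsg.Agent.Lib.Lead.OG.Defs

set_option autoImplicit false

namespace Cfsg.Agent.Lib.Lead.OG

open Cfsg Cfsg.Geo QuadraticMap
open Cfsg.Agent.Lib.Helper77.Asch (NormBy MinOver)
open Cfsg.Agent.Lib.Helper80.AS (env cen IsScal IsComm SelfAdj Projs tmat IsLeftFactor GramTensor)
open Cfsg.Agent.Lib.Helper77.AschG (pt slot fp)
open scoped MatrixGroups Matrix Kronecker

variable {ι : Type} [Fintype ι] [DecidableEq ι] {F : Type*} [Field F]

/-- SKEW. -/
theorem not_skew_odd (h2 : (2 : F) ≠ 0) {s : ℕ} (hs : Odd s) (J : Matrix (Fin s) (Fin s) F) (hd : J.det ≠ 0)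
    (hJ : Jᵀ = -J) : False := by
  have h1 : J.det = -J.det := by
    conv_lhs => rw [← Matrix.det_transpose, hJ, Matrix.det_neg, Fintype.card_fin, hs.neg_one_pow]
    ring
  have h3 : (2 : F) * J.det = 0 := by linear_combination h1
  exact hd ((mul_eq_zero.mp h3).resolve_left h2)

end Cfsg.Agent.Lib.Lead.OG
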