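import Mathlib
import Cfsg.Agent.Lib.Helper17.FrameThree
import Cfsg.Agent.Lib.Helper76.PermSolvable
import Cfsg.Agent.Lib.Helper3.W3F3

/-! Ladder OG, rung SOLV33: the isometry group of a symmetric form on `F₃³` is solvable. -/

set_option autoImplicit false

namespace Cfsg.Agent.Lib.Lead.OG

open Cfsg Cfsg.Geo
open Cfsg.Agent.Lib.Helper17.FrameThree
open scoped MatrixGroups Matrix

variable {F : Type*} [Field F]

/-- the bilinear form with Gram matrix `J`. -/
def solvF (J : Matrix (Fin 3) (Fin 3) F) (u v : Fin 3 → F) : F := u ⬝ᵥ J *ᵥ v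

theorem solv33_sym (J : Matrix (Fin 3) (Fin 3) F) (hJ : Jᵀ = J) (hd : J.det ≠ 0) :
    IsSymmetricForm (solvF J) := by
  have hsymm : ∀ u v, solvF J u v = solvF J v u := by
    intro u v
    unfold solvF
    rw [Matrix.dotProduct_mulVec, ← Matrix.mulVec_transpose, hJ, dotProduct_comm]
  have hnd1 : ∀ v, v ≠ 0 → ∃ x, solvF J x v ≠ 0 := by
    intro v hv
    by_contra hcon
    push Not at hcon
    apply hv
    have h1 : J *ᵥ v = 0 := by
      funext i
      have := hcon (Pi.single i 1)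
      unfold solvF at this
      rwa [single_one_dotProduct] at this
    exact Matrix.eq_zero_of_mulVec_eq_zero hd h1
  refine ⟨⟨?_, ?_, ?_, ?_⟩, hsymm, ?_⟩
  · intro x y v
    unfold solvF
    rw [add_dotProduct]
  · intro c x v
    unfold solvF
    rw [smul_dotProduct, smul_eq_mul]
  · intro v x y
    unfold solvF
    rw [Matrix.mulVec_add, dotProduct_add]
  · intro c v x
    unfold solvF
    rw [Matrix.mulVec_smul, dotProduct_smul, smul_eq_mul]
  · intro v hv
    obtain ⟨x, hx⟩ := hnd1 v hv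
    exact ⟨⟨x, hx⟩, ⟨x, by rwa [hsymm]⟩⟩

theorem solv33_iso (J g : Matrix (Fin 3) (Fin 3) F) (h : gᵀ * J * g = J) (u v : Fin 3 → F) :
    solvF J (g *ᵥ u) (g *ᵥ v) = solvF J u v := by
  unfold solvF
  rw [← Matrix.vecMul_transpose, ← Matrix.dotProduct_mulVec, Matrix.mulVec_mulVec,
    Matrix.mulVec_mulVec, h]

theorem solvable_three [Fintype F] (hq : Fintype.card F = 3) (J : Matrix (Fin 3) (Fin 3) F) (hJ : Jᵀ = J)
    (hd : J.det ≠ 0) {X : Type*} [Group X] (ρ : X →* GL (Fin 3) F) (hρ : Function.Injective ρ)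
    (h : ∀ x : X, ((ρ x : GL (Fin 3) F) : Matrix (Fin 3) (Fin 3) F)ᵀ * J * ((ρ x : GL (Fin 3) F) : Matrix (Fin 3) (Fin 3) F) = J) :
    Group.IsSolvable X := by
  classical
  obtain ⟨hF, h3⟩ := Cfsg.Agent.Lib.Helper45.StW.f3_cases hq
  have hf := solv33_sym J hJ hd
  obtain ⟨ε, y, hy⟩ := exists_frame hF h3 hf
  have hb := hf.bilinear
  obtain ⟨A, hA⟩ : ∃ A : X → (Fin 3 → F) → (Fin 3 → F),
      ∀ x u, A x u = ((ρ x : GL (Fin 3) F) : Matrix (Fin 3) (Fin 3) F) *ᵥ u := ⟨_, fun _ _ => rfl⟩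
  have hiso : ∀ (x : X) (u v : Fin 3 → F), solvF J (A x u) (A x v) = solvF J u v := by
    intro x u v
    rw [hA, hA]
    exact solv33_iso J _ (h x) u v
  have hmul : ∀ (x x' : X) (u : Fin 3 → F), A (x * x') u = A x (A x' u) := by
    intro x x' u
    rw [hA, hA, hA, map_mul, Units.val_mul, Matrix.mulVec_mulVec]
  have hone : ∀ u : Fin 3 → F, A 1 u = u := by
    intro u
    rw [hA, map_one, Units.val_one, Matrix.one_mulVec]
  have hsm : ∀ (x : X) (c : F) (u : Fin 3 → F), A x (c • u) = c • A x u := by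
    intro x c u
    rw [hA, hA, Matrix.mulVec_smul]
  have hadd : ∀ (x : X) (u v : Fin 3 → F), A x (u + v) = A x u + A x v := by
    intro x u v
    rw [hA, hA, hA, Matrix.mulVec_add]
  have hzero : ∀ x : X, A x 0 = 0 := by
    intro x
    rw [hA, Matrix.mulVec_zero]
  have hFr : ∀ (x : X) (w : Fin 3 → F), Fr (solvF J) w → Fr (solvF J) (A x w) := by
    rintro x w ⟨hw1, hw2⟩
    refine ⟨by rw [hiso]; exact hw1, ?_⟩
    intro v hv hvv
    have hv' : v = A x (A x⁻¹ v) := by rw [← hmul, mul_inv_cancel, hone]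
    have h1 : A x⁻¹ v = 0 := by
      apply hw2
      · rw [← hiso x, ← hv']
        exact hv
      · rw [← hiso x, ← hv']
        exact hvv
    rw [hv', h1, hzero]
  have hex : ∀ (x : X) (k : Fin 3), ∃ k' : Fin 3, ∃ c : F, A x (y k) = c • y k' := fun x k =>
    hy.eq_of_fr hF h3 hb (hFr x _ (hy.fr hF h3 hb k))
  have hne : ∀ (x : X) (k : Fin 3), A x (y k) ≠ 0 := by
    intro x k h0
    have h1 := hiso x (y k) (y k)
    rw [h0, hy.orth, if_pos rfl] at h1
    have h2 : solvF J 0 0 = 0 := by simp [solvF]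
    rw [h2] at h1
    exact hy.ne h1.symm
  have huniq : ∀ (x : X) (k k₁ k₂ : Fin 3), (∃ c : F, A x (y k) = c • y k₁) →
      (∃ c : F, A x (y k) = c • y k₂) → k₁ = k₂ := by
    rintro x k k₁ k₂ ⟨c₁, h1⟩ ⟨c₂, h2⟩
    by_contra hk
    have hc1 : c₁ ≠ 0 := by
      intro h0
      apply hne x k
      rw [h1, h0, zero_smul]
    have e1 : solvF J (A x (y k)) (y k₁) = c₁ * ε := by
      rw [h1, hb.smul_left, hy.orth, if_pos rfl]
    have e2 : solvF J (A x (y k)) (y k₁) = 0 := by
      rw [h2, hb.smul_left, hy.orth, if_neg (Ne.symm hk), mul_zero]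
    rw [e1] at e2
    exact (mul_ne_zero hc1 hy.ne) e2
  obtain ⟨σ, hσ⟩ : ∃ σ : X → Fin 3 → Fin 3, ∀ x k, ∃ c : F, A x (y k) = c • y (σ x k) :=
    ⟨fun x k => Classical.choose (hex x k), fun x k => Classical.choose_spec (hex x k)⟩
  let act : MulAction X (Fin 3) :=
    { smul := σ
      one_smul := by
        intro k
        exact huniq 1 k _ _ (hσ 1 k) ⟨1, by rw [hone, one_smul]⟩
      mul_smul := by
        intro x x' k
        apply huniq (x * x') k _ _ (hσ (x * x') k)
        obtain ⟨c', hc'⟩ := hσ x' k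
        obtain ⟨c, hc⟩ := hσ x (σ x' k)
        exact ⟨c' * c, by rw [hmul, hc', hsm, hc, smul_smul]; rfl⟩ }
  have hact : ∀ (x : X) (k : Fin 3), x • k = σ x k := fun _ _ => rfl
  have hker : ∀ a b : (MulAction.toPermHom X (Fin 3)).ker, a * b = b * a := by
    rintro ⟨a, ha⟩ ⟨b, hb'⟩
    apply Subtype.ext
    show a * b = b * a
    have hfix : ∀ z : X, z ∈ (MulAction.toPermHom X (Fin 3)).ker → ∀ k, ∃ c : F, A z (y k) = c • y k := by
      intro z hz k
      have h1 : σ z k = k := by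
        rw [MonoidHom.mem_ker] at hz
        have := congrArg (fun p : Equiv.Perm (Fin 3) => p k) hz
        simpa [MulAction.toPermHom_apply, hact] using this
      have h2 := hσ z k
      rwa [h1] at h2
    have hyk : ∀ k, A (a * b) (y k) = A (b * a) (y k) := by
      intro k
      obtain ⟨c, hc⟩ := hfix a ha k
      obtain ⟨c', hc'⟩ := hfix b hb' k
      rw [hmul, hmul, hc, hc', hsm, hsm, hc, hc', smul_smul, smul_smul, mul_comm]
    apply hρ
    apply Units.ext
    apply Matrix.ext_of_mulVec_single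
    intro i
    obtain ⟨co, hco⟩ := hy.span (Pi.single i 1)
    rw [← hA, ← hA, hco]
    simp only [hadd, hsm, hyk]
  have : Group.IsSolvable (MulAction.toPermHom X (Fin 3)).ker := Group.isSolvable_of_comm hker
  have : Group.IsSolvable (Equiv.Perm (Fin 3)) :=
    Cfsg.Agent.Lib.Helper76.isSolvable_perm_of_card_le_four (Fin 3) (by simp)
  exact Group.isSolvable_of_ker_le_range (MulAction.toPermHom X (Fin 3)).ker.subtype
    (MulAction.toPermHom X (Fin 3)) (by rw [Subgroup.range_subtype])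

end Cfsg.Agent.Lib.Lead.OG
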