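import Cfsg.Agent.Lib.Lead.OG.Defs
import Cfsg.Agent.Lib.Helper80.AS.TFORM

/-! Ladder OG, rung TFORMO: port of AS/TFORM `tensor_gram` to symmetric forms. -/

set_option autoImplicit false

namespace Cfsg.Agent.Lib.Lead.OG

open Cfsg Cfsg.Geo QuadraticMap
open Cfsg.Agent.Lib.Helper77.Asch (NormBy MinOver)
open Cfsg.Agent.Lib.Helper80.AS
open Cfsg.Agent.Lib.Helper77.AschG (pt slot fp)
open scoped MatrixGroups Matrix Kronecker

variable {ι : Type} [Fintype ι] [DecidableEq ι] {F : Type*} [Field F]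

theorem tensor_gram_sym [Nonempty ι] (f : (ι → F) → (ι → F) → F) (hf : IsSymmetricForm f) {s k : ℕ}
    (B : Subalgebra F (Matrix ι ι F)) (e : ι ≃ Fin s × Fin k) (P : GL ι F) (hB : IsLeftFactor B e P)
    (hadj : IsAdjointClosedFor f B) :
    ∃ (J₁ : Matrix (Fin s) (Fin s) F) (J₂ : Matrix (Fin k) (Fin k) F), GramTensor f e P J₁ J₂ := by
  classical
  let i0 : ι := Classical.arbitrary ι
  let o : Fin k := (e i0).2
  have hs : 0 < s := (e i0).1.pos
  let f' : (Fin s × Fin k → F) → (Fin s × Fin k → F) → F :=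
    fun x y => f ((P : Matrix ι ι F) *ᵥ (x ∘ e)) ((P : Matrix ι ι F) *ᵥ (y ∘ e))
  have hadd : ∀ x y : Fin s × Fin k → F, (x + y) ∘ e = x ∘ e + y ∘ e := fun _ _ => rfl
  have hsmul : ∀ (c : F) (x : Fin s × Fin k → F), (c • x) ∘ e = c • (x ∘ e) := fun _ _ => rfl
  have hbil : IsBilinearForm f' :=
    { add_left := by
        intro x y v
        change f _ _ = f _ _ + f _ _
        rw [hadd, Matrix.mulVec_add, hf.bilinear.add_left]
      smul_left := by
        intro c x v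
        change f _ _ = c * f _ _
        rw [hsmul, Matrix.mulVec_smul, hf.bilinear.smul_left]
      add_right := by
        intro v x y
        change f _ _ = f _ _ + f _ _
        rw [hadd, Matrix.mulVec_add, hf.bilinear.add_right]
      smul_right := by
        intro c v x
        change f _ _ = c * f _ _
        rw [hsmul, Matrix.mulVec_smul, hf.bilinear.smul_right] }
  have hnd : IsNondegenerateForm f' := by
    intro v hv
    obtain ⟨⟨x0, hx0⟩, ⟨y0, hy0⟩⟩ := hf.nondegenerate _ (tform_ne_zero e P v hv)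
    obtain ⟨x, rfl⟩ := tform_surj e P x0
    obtain ⟨y, rfl⟩ := tform_surj e P y0
    exact ⟨⟨x, hx0⟩, ⟨y, hy0⟩⟩
  set G := gramMatrix f' with hG
  have hGf : ∀ x y, f' x y = x ⬝ᵥ (G *ᵥ y) := uniq_gram f' hbil
  have hdet : G.det ≠ 0 := uniq_det f' hbil hnd
  have hunit : IsUnit G.det := isUnit_iff_ne_zero.mpr hdet
  have hrel : ∀ z : Matrix (Fin s) (Fin s) F, ∃ z' : Matrix (Fin s) (Fin s) F,
      (z ⊗ₖ (1 : Matrix (Fin k) (Fin k) F)) * G = G * (z' ⊗ₖ (1 : Matrix (Fin k) (Fin k) F)) := by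
    intro z
    have hz : tmat e P (zᵀ ⊗ₖ (1 : Matrix (Fin k) (Fin k) F)) ∈ B := (hB _).mpr ⟨zᵀ, rfl⟩
    obtain ⟨k', hk'B, hk'⟩ := hadj _ hz
    obtain ⟨z', rfl⟩ := (hB _).mp hk'B
    refine ⟨z', ?_⟩
    apply uniq_ext
    intro a b
    have h1 := hk' ((P : Matrix ι ι F) *ᵥ (a ∘ e)) ((P : Matrix ι ι F) *ᵥ (b ∘ e))
    rw [tmat_mulVec, tmat_mulVec] at h1
    have h2 : f' ((zᵀ ⊗ₖ (1 : Matrix (Fin k) (Fin k) F)) *ᵥ a) b =
        f' a ((z' ⊗ₖ (1 : Matrix (Fin k) (Fin k) F)) *ᵥ b) := h1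
    rw [hGf, hGf] at h2
    have ht : (zᵀ ⊗ₖ (1 : Matrix (Fin k) (Fin k) F)) = (z ⊗ₖ (1 : Matrix (Fin k) (Fin k) F))ᵀ := by
      rw [← Matrix.kroneckerMap_transpose, Matrix.transpose_one]
    rw [← Matrix.mulVec_mulVec, ← Matrix.mulVec_mulVec, ← h2, ht, Matrix.dotProduct_mulVec a, ← Matrix.mulVec_transpose]
  obtain ⟨a, a', y, ha1, ha2, hCy⟩ := tnorm_core o G⁻¹ G (Matrix.nonsing_inv_mul G hunit)
    (Matrix.mul_nonsing_inv G hunit) (by
      intro z
      obtain ⟨z', hz'⟩ := hrel z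
      refine ⟨z', ?_⟩
      rw [mul_assoc, hz', ← mul_assoc, Matrix.nonsing_inv_mul G hunit, one_mul])
  have hdety : y.det ≠ 0 := by
    intro h0
    have h1 : (G⁻¹).det = 0 := by
      rw [hCy, Matrix.det_kronecker, h0, Fintype.card_fin, Fintype.card_fin, zero_pow hs.ne', mul_zero]
    have h2 := congrArg Matrix.det (Matrix.mul_nonsing_inv G hunit)
    rw [Matrix.det_mul, h1, mul_zero, Matrix.det_one] at h2
    exact zero_ne_one h2
  have hyu : IsUnit y.det := isUnit_iff_ne_zero.mpr hdety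
  have hGk : G = a' ⊗ₖ y⁻¹ := by
    calc G = G * ((a * a') ⊗ₖ (y * y⁻¹)) := by
          rw [ha1, Matrix.mul_nonsing_inv y hyu, Matrix.one_kronecker_one, mul_one]
      _ = G * (G⁻¹ * (a' ⊗ₖ y⁻¹)) := by rw [Matrix.mul_kronecker_mul, hCy]
      _ = a' ⊗ₖ y⁻¹ := by rw [← mul_assoc, Matrix.mul_nonsing_inv G hunit, one_mul]
  refine ⟨a', y⁻¹, ?_⟩
  intro x y'
  change f' x y' = _
  rw [hGf, ← hGk]
  simp only [formOfGram, dotProduct, Matrix.mulVec, Finset.mul_sum, mul_assoc, id]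

end Cfsg.Agent.Lib.Lead.OG
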