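import Cfsg.Agent.Lib.Lead.OG.Defs

set_option autoImplicit false

namespace Cfsg.Agent.Lib.Lead.OG

open Cfsg Cfsg.Geo QuadraticMap
open Cfsg.Agent.Lib.Helper77.Asch (NormBy MinOver)
open Cfsg.Agent.Lib.Helper80.AS (env cen IsScal IsComm SelfAdj Projs tmat IsLeftFactor GramTensor)
open Cfsg.Agent.Lib.Helper77.AschG (pt slot fp)
open scoped MatrixGroups Matrix Kronecker

variable {ι : Type} [Fintype ι] [DecidableEq ι] {F : Type*} [Field F]

/-- TPWI (port of Helper38/AschG/TPW.lean). -/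
theorem tensor_le_wreath_i {a : ℕ} (e : ι ≃ Fin a × Fin a) (P : GL ι F) :
    tensorProductSubgroup a a e P ≤ tensorWreathSubgroup a 2 (e.trans (finTwoArrowEquiv (Fin a)).symm) P := by
  intro g hg
  obtain ⟨g1, hg1, rfl⟩ := hg
  obtain ⟨k, hk, rfl⟩ := hg1
  obtain ⟨x, y, hxy⟩ := hk
  refine ⟨_, ⟨glReindex (finTwoArrowEquiv (Fin a)).symm k, ?_, rfl⟩, ?_⟩
  · apply Subgroup.subset_closure
    left
    refine ⟨![x, y], fun u v => ?_⟩
    rw [Fin.prod_univ_two]
    change (k : Matrix (Fin a × Fin a) (Fin a × Fin a) F) (finTwoArrowEquiv (Fin a) u)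
      (finTwoArrowEquiv (Fin a) v) = _
    rw [hxy]
    simp [Matrix.kroneckerMap_apply, finTwoArrowEquiv]
  · congr 1

end Cfsg.Agent.Lib.Lead.OG
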