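import Cfsg.Agent.Lib.Lead.OG.Defs
import Cfsg.Agent.Lib.Helper80.AS.TSIGN

set_option autoImplicit false

namespace Cfsg.Agent.Lib.Lead.OG

open Cfsg Cfsg.Geo QuadraticMap
open Cfsg.Agent.Lib.Helper77.Asch (NormBy MinOver)
open Cfsg.Agent.Lib.Helper80.AS (env cen IsScal IsComm SelfAdj Projs tmat IsLeftFactor GramTensor)
open Cfsg.Agent.Lib.Helper80.AS (tsign_single tsign_mulVec)
open Cfsg.Agent.Lib.Helper77.AschG (pt slot fp)
open scoped MatrixGroups Matrix Kronecker

variable {ι : Type} [Fintype ι] [DecidableEq ι] {F : Type*} [Field F]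

/-- the Gram matrix of a non-degenerate form is invertible (port of `tsign_det`). -/
theorem tsigno_det (f : (ι → F) → (ι → F) → F) (hf : IsNondegenerateForm f) {s k : ℕ}
    (e : ι ≃ Fin s × Fin k) (P : GL ι F) (J₁ : Matrix (Fin s) (Fin s) F)
    (J₂ : Matrix (Fin k) (Fin k) F) (hJ : GramTensor f e P J₁ J₂) : (J₁ ⊗ₖ J₂).det ≠ 0 := by
  intro hdet
  obtain ⟨y, hy0, hy⟩ := Matrix.exists_mulVec_eq_zero_iff.2 hdet
  have hv : (P : Matrix ι ι F) *ᵥ (y ∘ e) ≠ 0 := by
    intro h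
    apply hy0
    have h1 : ((P⁻¹ : GL ι F) : Matrix ι ι F) *ᵥ ((P : Matrix ι ι F) *ᵥ (y ∘ e)) = 0 := by
      rw [h, Matrix.mulVec_zero]
    rw [Matrix.mulVec_mulVec, ← Units.val_mul, inv_mul_cancel, Units.val_one,
      Matrix.one_mulVec] at h1
    funext a
    have := congrFun h1 (e.symm a)
    simpa using this
  obtain ⟨⟨w, hw⟩, -⟩ := hf _ hv
  apply hw
  have hwx : w = (P : Matrix ι ι F) *ᵥ (((((P⁻¹ : GL ι F) : Matrix ι ι F) *ᵥ w) ∘ e.symm) ∘ e) := by
    have : ((((P⁻¹ : GL ι F) : Matrix ι ι F) *ᵥ w) ∘ e.symm) ∘ e =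
        ((P⁻¹ : GL ι F) : Matrix ι ι F) *ᵥ w := by
      funext i; simp
    rw [this, Matrix.mulVec_mulVec, ← Units.val_mul, mul_inv_cancel, Units.val_one,
      Matrix.one_mulVec]
  rw [hwx, hJ, tsign_mulVec, hy]
  simp

/-- TSIGNO (port of AS/TSIGN.lean `tensor_sign`).  `G = J₁ ⊗ J₂` is invertible and `Gᵀ = G`.  Pick `J₁ a b ≠ 0`: `J₁ b a * J₂ j i = J₁ a b * J₂ i j`; so `J₂ᵀ = λ J₂`, `λ² = 1`, `λ = ± 1`, and `J₁ᵀ = λ J₁`. -/
theorem tensor_sign_sym [Nonempty ι] (f : (ι → F) → (ι → F) → F) (hf : IsSymmetricForm f) {s k : ℕ}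
    (e : ι ≃ Fin s × Fin k) (P : GL ι F) (J₁ : Matrix (Fin s) (Fin s) F) (J₂ : Matrix (Fin k) (Fin k) F)
    (hJ : GramTensor f e P J₁ J₂) :
    J₁.det ≠ 0 ∧ J₂.det ≠ 0 ∧ ((J₁ᵀ = J₁ ∧ J₂ᵀ = J₂) ∨ (J₁ᵀ = -J₁ ∧ J₂ᵀ = -J₂)) := by
  have hdet := tsigno_det f hf.nondegenerate e P J₁ J₂ hJ
  rw [Matrix.det_kronecker] at hdet
  have hd1 : J₁.det ≠ 0 := by
    intro h
    apply hdet
    obtain ⟨i⟩ := ‹Nonempty ι›
    have hk : Fintype.card (Fin k) ≠ 0 := by
      rw [Fintype.card_fin]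
      have := (e i).2.2
      omega
    rw [h, zero_pow hk, zero_mul]
  have hd2 : J₂.det ≠ 0 := by
    intro h
    apply hdet
    obtain ⟨i⟩ := ‹Nonempty ι›
    have hs : Fintype.card (Fin s) ≠ 0 := by
      rw [Fintype.card_fin]
      have := (e i).1.2
      omega
    rw [h, zero_pow hs, mul_zero]
  refine ⟨hd1, hd2, ?_⟩
  -- symmetry of the Gram matrix
  have hsym : ∀ (a b : Fin s) (i j : Fin k), J₁ a b * J₂ i j = J₁ b a * J₂ j i := by
    intro a b i j
    have h1 := hJ (Pi.single (a, i) 1) (Pi.single (b, j) 1)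
    have h2 := hJ (Pi.single (b, j) 1) (Pi.single (a, i) 1)
    rw [tsign_single] at h1 h2
    rw [hf.symm, h2] at h1
    simpa [Matrix.kroneckerMap_apply] using h1.symm
  have hJ1 : ∃ a b, J₁ a b ≠ 0 := by
    by_contra hcon
    push Not at hcon
    apply hd1
    have : J₁ = 0 := by ext a b; exact hcon a b
    obtain ⟨i⟩ := ‹Nonempty ι›
    have : Nonempty (Fin s) := ⟨(e i).1⟩
    rw [‹J₁ = 0›, Matrix.det_zero]
  have hJ2 : ∃ i j, J₂ i j ≠ 0 := by
    by_contra hcon
    push Not at hcon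
    apply hd2
    have : J₂ = 0 := by ext a b; exact hcon a b
    obtain ⟨i⟩ := ‹Nonempty ι›
    have : Nonempty (Fin k) := ⟨(e i).2⟩
    rw [‹J₂ = 0›, Matrix.det_zero]
  obtain ⟨a, b, hab⟩ := hJ1
  obtain ⟨i, j, hij⟩ := hJ2
  obtain ⟨lam, hlam⟩ : ∃ lam : F, ∀ i j, J₂ i j = lam * J₂ j i := by
    refine ⟨J₁ b a / J₁ a b, fun i j => ?_⟩
    have := hsym a b i j
    field_simp
    linear_combination this
  have hl2 : lam * lam = 1 := by
    have h1 := hlam i j
    rw [hlam j i, ← mul_assoc] at h1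
    have h2 : (lam * lam - 1) * J₂ i j = 0 := by linear_combination -h1
    rcases mul_eq_zero.1 h2 with h | h
    · linear_combination h
    · exact absurd h hij
  have hl : lam = 1 ∨ lam = -1 := by
    have : (lam - 1) * (lam + 1) = 0 := by linear_combination hl2
    rcases mul_eq_zero.1 this with h | h
    · left; linear_combination h
    · right; linear_combination h
  rcases hl with rfl | rfl
  · left
    constructor
    · ext a' b'
      have h1 := hsym b' a' i j
      rw [hlam j i, one_mul] at h1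
      have h2 : (J₁ b' a' - J₁ a' b') * J₂ i j = 0 := by linear_combination h1
      rcases mul_eq_zero.1 h2 with h | h
      · simp only [Matrix.transpose_apply]
        linear_combination h
      · exact absurd h hij
    · ext i' j'
      simp only [Matrix.transpose_apply]
      rw [hlam j' i', one_mul]
  · right
    constructor
    · ext a' b'
      have h1 := hsym b' a' i j
      rw [hlam j i] at h1
      have h2 : (J₁ b' a' + J₁ a' b') * J₂ i j = 0 := by linear_combination h1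
      rcases mul_eq_zero.1 h2 with h | h
      · simp only [Matrix.transpose_apply, Matrix.neg_apply]
        linear_combination h
      · exact absurd h hij
    · ext i' j'
      simp only [Matrix.transpose_apply, Matrix.neg_apply]
      rw [hlam j' i']
      ring

end Cfsg.Agent.Lib.Lead.OG
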