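import Cfsg.Agent.Lib.Lead.OG.Defs
import Cfsg.Agent.Lib.Helper80.AS.TSP

set_option autoImplicit false

namespace Cfsg.Agent.Lib.Lead.OG

open Cfsg Cfsg.Geo QuadraticMap
open Cfsg.Agent.Lib.Helper77.Asch (NormBy MinOver)
open Cfsg.Agent.Lib.Helper80.AS (env cen IsScal IsComm SelfAdj Projs tmat IsLeftFactor GramTensor)
open Cfsg.Agent.Lib.Helper77.AschG (pt slot fp)
open scoped MatrixGroups Matrix Kronecker

variable {ι : Type} [Fintype ι] [DecidableEq ι] {F : Type*} [Field F]

/-- TSPO. -/
theorem ts_pair_sym (f : (ι → F) → (ι → F) → F) (hf : IsSymmetricForm f)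
    (E : Subalgebra F (Matrix ι ι F)) (hc : IsComm E) (hadj : IsAdjointClosedFor f E)
    (h0 : ∀ x ∈ E, SelfAdj f x → x = 0 ∨ ∃ y : Matrix ι ι F, x * y = 1) {t d : ℕ}
    (D : Fin t → Submodule F (ι → F)) (hD : IsMDecomposition d D) (hp : Projs E D) : t = 2 := by
  have hb := hf.bilinear
  have hne : ∀ j, ∃ w ∈ D j, w ≠ 0 := by
    intro j
    apply Submodule.exists_mem_ne_zero_of_ne_bot
    intro h
    have := hD.finrank_eq j
    rw [h, finrank_bot] at this
    have := hD.pos
    omega
  -- the key facts for one block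
  have key : ∀ i : Fin t, ∃ e ∈ E, ∃ e' ∈ E, (∀ v ∈ D i, e *ᵥ v = v) ∧
      (∀ j, j ≠ i → ∀ u ∈ D j, e *ᵥ u = 0) ∧ (∀ u v, f (e *ᵥ u) v = f u (e' *ᵥ v)) ∧
      (∀ u v, f (e' *ᵥ u) v = f u (e *ᵥ v)) ∧ e' * e = 0 ∧ e + e' = 1 := by
    intro i
    obtain ⟨e, heE, he1, he0⟩ := hp i
    obtain ⟨e', he'E, hee'⟩ := hadj e heE
    have hee'' : ∀ u v, f (e' *ᵥ u) v = f u (e *ᵥ v) := by
      intro u v
      rw [hf.symm, ← hee', hf.symm]
    have hidem : e * e = e := by
      apply Cfsg.Agent.Lib.Helper80.AS.tsp_ext D hD.iSup_eq_top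
      intro j v hv
      rw [← Matrix.mulVec_mulVec]
      by_cases hj : j = i
      · subst hj
        rw [he1 v hv, he1 v hv]
      · rw [he0 j hj v hv, Matrix.mulVec_zero]
    have hidem' : e' * e' = e' := by
      apply Matrix.toLin'.injective
      apply LinearMap.ext
      intro a
      rw [Matrix.toLin'_apply, Matrix.toLin'_apply]
      apply Cfsg.Agent.Lib.Helper80.AS.tsp_cancel f hb hf.nondegenerate
      intro b
      rw [← Matrix.mulVec_mulVec, hee'', hee'', Matrix.mulVec_mulVec, hidem, hee'']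
    have hcomm : e * e' = e' * e := hc e heE e' he'E
    obtain ⟨j, hj⟩ : ∃ j : Fin t, j ≠ i := by
      have h2 := hD.two_le
      by_cases hi : (i : ℕ) = 0
      · exact ⟨⟨1, by omega⟩, fun h => by
          have := congrArg Fin.val h
          simp at this
          omega⟩
      · exact ⟨⟨0, by omega⟩, fun h => by
          have := congrArg Fin.val h
          simp at this
          omega⟩
    obtain ⟨w, hw, hw0⟩ := hne j
    have hnotinv : ∀ z : Matrix ι ι F, e * z ≠ 1 := by
      intro z hz
      have h1 : z * e = 1 := mul_eq_one_comm.1 hz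
      apply hw0
      have h2 : (z * e) *ᵥ w = w := by rw [h1, Matrix.one_mulVec]
      rw [← Matrix.mulVec_mulVec, he0 j hj w hw, Matrix.mulVec_zero] at h2
      exact h2.symm
    have hp0 : e * e' = 0 := by
      have hsa : SelfAdj f (e * e') := by
        intro u v
        rw [← Matrix.mulVec_mulVec, hee', hee'', Matrix.mulVec_mulVec]
      rcases h0 _ (E.mul_mem heE he'E) hsa with h1 | ⟨y, hy⟩
      · exact h1
      · exact absurd (by rw [← mul_assoc]; exact hy) (hnotinv (e' * y))
    have hs1 : e + e' = 1 := by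
      have hsa : SelfAdj f (e + e') := by
        intro u v
        rw [Matrix.add_mulVec, Matrix.add_mulVec, hb.add_left, hb.add_right, hee', hee'', add_comm]
      have hss : (e + e') * (e + e') = e + e' := by
        rw [add_mul, mul_add, mul_add, hidem, hidem', ← hcomm, hp0]
        simp
      rcases h0 _ (E.add_mem heE he'E) hsa with h1 | ⟨y, hy⟩
      · exfalso
        have h2 : e' = -e := by
          rw [eq_neg_iff_add_eq_zero, add_comm]; exact h1
        rw [h2, mul_neg, hidem, neg_eq_zero] at hp0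
        obtain ⟨x, hx, hx0⟩ := hne i
        apply hx0
        rw [← he1 x hx, hp0, Matrix.zero_mulVec]
      · calc e + e' = (e + e') * ((e + e') * y) := by rw [hy, mul_one]
          _ = ((e + e') * (e + e')) * y := by rw [mul_assoc]
          _ = 1 := by rw [hss, hy]
    exact ⟨e, heE, e', he'E, he1, he0, hee', hee'', hcomm ▸ hp0, hs1⟩
  have z2 : ∀ v, f v 0 = 0 := fun v => by
    have := hb.smul_right 0 v 0
    simpa using this
  -- blocks different from `i` are pairwise orthogonal
  have hort : ∀ i j k : Fin t, j ≠ i → k ≠ i → ∀ u ∈ D j, ∀ v ∈ D k, f u v = 0 := by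
    intro i j k hj hk u hu v hv
    obtain ⟨e, -, e', -, -, he0, hee', hee'', hp0, hs1⟩ := key i
    have h1 : ∀ l, l ≠ i → ∀ x ∈ D l, e' *ᵥ x = x := by
      intro l hl x hx
      have h2 : (e + e') *ᵥ x = x := by rw [hs1, Matrix.one_mulVec]
      rw [Matrix.add_mulVec, he0 l hl x hx, zero_add] at h2
      exact h2
    have h2 : f u v = f (e' *ᵥ u) v := by rw [h1 j hj u hu]
    rw [h2, hee'', he0 k hk v hv, z2]
  have ht : t = 2 := by
    by_contra hne2
    have h3 : 3 ≤ t := by
      have := hD.two_le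
      omega
    have hall : ∀ j k : Fin t, ∀ u ∈ D j, ∀ v ∈ D k, f u v = 0 := by
      intro j k
      obtain ⟨i, hij, hik⟩ : ∃ i : Fin t, j ≠ i ∧ k ≠ i := by
        by_contra hcon
        push Not at hcon
        have hsub : (Finset.univ : Finset (Fin t)) ⊆ {j, k} := by
          intro i _
          by_cases hji : j = i
          · simp [hji]
          · have := hcon i hji
            simp [this]
        have h4 := Finset.card_le_card hsub
        have h5 : ({j, k} : Finset (Fin t)).card ≤ 2 := Finset.card_le_two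
        rw [Finset.card_univ, Fintype.card_fin] at h4
        omega
      exact hort i j k hij hik
    have hzero := Cfsg.Agent.Lib.Helper80.AS.tsp_zero f hb D hD.iSup_eq_top hall
    obtain ⟨w, -, hw0⟩ := hne ⟨0, by omega⟩
    obtain ⟨⟨x, hx⟩, -⟩ := hf.nondegenerate w hw0
    exact hx (hzero x w)
  exact ht

end Cfsg.Agent.Lib.Lead.OG
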