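import Cfsg.Agent.Lib.Lead.OG.Defs
import Cfsg.Agent.Lib.Lead.OG.GF

set_option autoImplicit false

namespace Cfsg.Agent.Lib.Lead.OG

open Cfsg Cfsg.Geo QuadraticMap
open Cfsg.Agent.Lib.Helper80.AS (env cen IsScal IsComm SelfAdj Projs tmat IsLeftFactor GramTensor)
open scoped MatrixGroups Matrix Kronecker

variable {ι : Type} [Fintype ι] [DecidableEq ι] {F : Type*} [Field F]

/-- TSTR. -/
theorem tensor_struct_sym (f : (ι → F) → (ι → F) → F) {s k : ℕ} (e : ι ≃ Fin s × Fin k) (P : GL ι F)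
    (J₁ : Matrix (Fin s) (Fin s) F) (J₂ : Matrix (Fin k) (Fin k) F) (hJ : GramTensor f e P J₁ J₂)
    (h1 : J₁ᵀ = J₁) (h2 : J₂ᵀ = J₂) (d1 : J₁.det ≠ 0) (d2 : J₂.det ≠ 0) :
    ∃ (f₁ : (Fin s → F) → (Fin s → F) → F) (f₂ : (Fin k → F) → (Fin k → F) → F),
      IsSymmetricForm f₁ ∧ IsSymmetricForm f₂ ∧ IsTensorFormStructure id f f₁ f₂ e P := by
  refine ⟨gf J₁, gf J₂, gf_isSymmetric J₁ h1 d1, gf_isSymmetric J₂ h2 d2, 1, one_ne_zero,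
    fun x y => ?_⟩
  rw [gramMatrix_gf, gramMatrix_gf, one_mul]
  exact hJ x y

end Cfsg.Agent.Lib.Lead.OG
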