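import Cfsg.Agent.Lib.Lead.OG.ADJ0
import Cfsg.Agent.Lib.Lead.OG.ADJC
import Cfsg.Agent.Lib.Lead.OG.C3N
import Cfsg.Agent.Lib.Lead.OG.CENO
import Cfsg.Agent.Lib.Lead.OG.CHB2
import Cfsg.Agent.Lib.Lead.OG.ECOMM
import Cfsg.Agent.Lib.Lead.OG.EGEN
import Cfsg.Agent.Lib.Lead.OG.ENVC
import Cfsg.Agent.Lib.Lead.OG.FMAX
import Cfsg.Agent.Lib.Lead.OG.G2P
import Cfsg.Agent.Lib.Lead.OG.GF
import Cfsg.Agent.Lib.Lead.OG.GPW
import Cfsg.Agent.Lib.Lead.OG.ISO
import Cfsg.Agent.Lib.Lead.OG.LCEN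
import Cfsg.Agent.Lib.Lead.OG.LFI
import Cfsg.Agent.Lib.Lead.OG.NDDO
import Cfsg.Agent.Lib.Lead.OG.ODDSO
import Cfsg.Agent.Lib.Lead.OG.PHI
import Cfsg.Agent.Lib.Lead.OG.POL
import Cfsg.Agent.Lib.Lead.OG.SIMA
import Cfsg.Agent.Lib.Lead.OG.SIMB
import Cfsg.Agent.Lib.Lead.OG.SIMC
import Cfsg.Agent.Lib.Lead.OG.SIMD
import Cfsg.Agent.Lib.Lead.OG.SKEW
import Cfsg.Agent.Lib.Lead.OG.SOLV33
import Cfsg.Agent.Lib.Lead.OG.TBA
import Cfsg.Agent.Lib.Lead.OG.TBB
import Cfsg.Agent.Lib.Lead.OG.TBC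
import Cfsg.Agent.Lib.Lead.OG.TFORMO
import Cfsg.Agent.Lib.Lead.OG.TPWI
import Cfsg.Agent.Lib.Lead.OG.TSIGNO
import Cfsg.Agent.Lib.Lead.OG.TSPO
import Cfsg.Agent.Lib.Lead.OG.TSTR
import Cfsg.Agent.Lib.Lead.OG.WN1I
import Cfsg.Agent.Lib.Helper11.AschO.Main
import Cfsg.Agent.Lib.Helper80.AS.CA1
import Cfsg.Agent.Lib.Helper80.AS.CA2
import Cfsg.Agent.Lib.Helper80.AS.CA3
import Cfsg.Agent.Lib.Helper80.AS.DSUM
import Cfsg.Agent.Lib.Helper80.AS.SAP
import Cfsg.Agent.Lib.Helper80.AS.SUBK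
import Cfsg.Agent.Lib.Helper80.AS.SUBKN
import Cfsg.Agent.Lib.Helper80.AS.DEG
import Cfsg.Agent.Lib.Helper80.AS.ENVN
import Cfsg.Agent.Lib.Helper80.AS.ENVA
import Cfsg.Agent.Lib.Helper80.AS.ENVS
import Cfsg.Agent.Lib.Helper80.AS.CEN
import Cfsg.Agent.Lib.Helper80.AS.TENS
import Cfsg.Agent.Lib.Helper80.AS.TNORM
import Cfsg.Agent.Lib.Helper80.AS.SWAP
import Cfsg.Agent.Lib.Helper80.AS.S1K1
import Cfsg.Agent.Lib.Helper77.AschG.AGKP

set_option autoImplicit false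
set_option linter.unusedSectionVars false
set_option linter.style.haveILetI false

namespace Cfsg.Agent.Lib.Lead.OG

open Cfsg Cfsg.Geo QuadraticMap
open Cfsg.Agent.Lib.Helper77.Asch (NormBy MinOver)
open Cfsg.Agent.Lib.Helper80.AS (env cen IsScal IsComm SelfAdj Projs tmat IsLeftFactor GramTensor)
open Cfsg.Agent.Lib.Helper77.AschG (pt slot fp)
open Cfsg.Agent.Lib.Helper80 Cfsg.Agent.Lib.Helper11 Cfsg.Agent.Lib.Helper77
open scoped MatrixGroups Matrix Kronecker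

variable {ι : Type} [Fintype ι] [DecidableEq ι] {F : Type*} [Field F]

/-- classes 2, 3 (and 5 for frames): a commutative adjoint-closed invariant subalgebra centralised by `N`. -/
theorem comm_cases [Fintype F] [Nonempty ι] (h2 : (2 : F) ≠ 0) (Q : QuadraticForm F (ι → F))
    (hQ : (polarBilin Q).Nondegenerate) (hdisc : ∀ F₀ : Subfield F, (AschO.gram Q).det ∈ F₀) {k : ℕ}
    (hk : Fintype.card ι = 2 * k + 1) (H : Subgroup (GL ι F)) (hfixH : FixesQuadForm (matrixSet H) Q)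
    (hirr : ActsIrreducibly (matrixSet H)) (N : Subgroup (GL ι F)) (hNH : N ≤ H)
    (hNZ : N ⊓ scalars ι F = ⊥) (hNne : N ≠ ⊥)
    (E : Subalgebra F (Matrix ι ι F)) (hc : IsComm E) (hn : H ≤ subalgebraNormalizer E)
    (hadj : IsAdjointClosedFor (polar Q) E)
    (hcommN : ∀ x ∈ N, ∀ z ∈ E, (x : Matrix ι ι F) * z = z * (x : Matrix ι ι F)) :
    InGeoO Q H ∨ IsScal E := by
  classical
  have hf : IsSymmetricForm (polar Q) := polar_isSymmetric Q hQ
  have hfixf : FixesForm (matrixSet H) (polar Q) := fixes_polar Q H hfixH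
  have hsim : H ≤ similarityGroup (polar Q) := le_sim_of_fixes _ H hfixf
  have hfixN : FixesForm (matrixSet N) (polar Q) := fun s hs => hfixf s (AschO.main_matrixSet_mono hNH hs)
  have hodd : Odd (Fintype.card ι) := ⟨k, hk⟩
  have hnil : ∀ x ∈ E, ∀ j : ℕ, x ^ j = 0 → x = 0 := fun x hx j hj => AS.no_nilpotent H hirr E hc hn x hx j hj
  rcases AS.field_or_idempotent E hc hnil with hfield | ⟨e₀, he, h1, h2', h3⟩
  · have hdvd : Module.finrank F E ∣ Fintype.card ι := AS.deg_dvd _ E hfield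
    have hoe : Odd (Module.finrank F E) := Odd.of_dvd_nat hodd hdvd
    have hsa := selfAdj_of_odd_sym (polar Q) hf E _ hfield hoe hadj
    by_cases he1 : Module.finrank F E = 1
    · right
      have hbot : E = ⊥ := Subalgebra.finrank_eq_one_iff.1 he1
      intro x hx
      rw [hbot] at hx
      obtain ⟨c, rfl⟩ := Algebra.mem_bot.1 hx
      exact ⟨c, by rw [Algebra.algebraMap_eq_smul_one]⟩
    · left
      obtain ⟨r, hr, hrd⟩ := Nat.exists_prime_and_dvd he1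
      obtain ⟨K', hK', hmem⟩ := AS.exists_subfield_alg E _ r hfield hoe.pos hrd
      have hsaK : IsSelfAdjointFor (polar Q) K' := fun z hz => hsa z ((hmem z).1 hz).1
      have hne := field_deg_ne (polar Q) hf K' r hK' hsaK N hfixN
        (fun x hx z hz => hcommN x hx z ((hmem z).1 hz).1) hNZ hNne
      exact Or.inr (Or.inr (Or.inr (Or.inr (Or.inl ⟨r, K', hr, hne, hK', hsaK,
        hn.trans (AS.subfield_alg_norm E K' _ hmem)⟩))))
  · left
    by_cases h0 : ∀ x ∈ E, SelfAdj (polar Q) x → x = 0 ∨ ∃ y : Matrix ι ι F, x * y = 1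
    · exfalso
      obtain ⟨t, d, D, hD, -, hp⟩ := AS.decomp_of_idempotent H hirr E hc hn e₀ he h1 h2' h3
      have ht := ts_pair_sym (polar Q) hf E hc hadj h0 D hD hp
      have hcd := AS.decomp_card D hD
      rw [ht] at hcd
      omega
    · push Not at h0
      obtain ⟨x, hxE, hxsa, hx0, hxinv⟩ := h0
      obtain ⟨E₀, hE₀, hE₀n⟩ := AS.exists_selfAdj (polar Q) hf.bilinear H hsim E hc hn
      have hc₀ : IsComm E₀ := fun a ha b hb => hc a ((hE₀ a).1 ha).1 b ((hE₀ b).1 hb).1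
      have hnil₀ : ∀ x ∈ E₀, ∀ j : ℕ, x ^ j = 0 → x = 0 :=
        fun x hx j hj => AS.no_nilpotent H hirr E₀ hc₀ hE₀n x hx j hj
      rcases AS.field_or_idempotent E₀ hc₀ hnil₀ with hfld | ⟨e₁, he₁, g1, g2, g3⟩
      · obtain ⟨y, -, hy⟩ := hfld.inv x ((hE₀ x).2 ⟨hxE, hxsa⟩) hx0
        exact absurd hy (hxinv y)
      · obtain ⟨t, d, D, hD, hHD, hp⟩ := AS.decomp_of_idempotent H hirr E₀ hc₀ hE₀n e₁ he₁ g1 g2 g3
        have hnd := nondeg_decomp_sym (polar Q) hf E₀ (fun x hx => ((hE₀ x).1 hx).2) D hD hp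
        have htr := AschO.decomp_transitive D hD H hHD hirr
        have hOD := orth_decomp_of_trans Q H hfixH D hnd htr
        by_cases hd1 : d = 1
        · subst hd1
          have hcd := AS.decomp_card D hD
          by_cases hq : (Fintype.card F).Prime
          · exact Or.inr (Or.inr (Or.inr (Or.inl ⟨t, D, hq, hOD, hHD⟩)))
          · obtain ⟨F₁, r, P, hr, hcard, hrat, hle⟩ := AschO.frame_subfield h2 Q hQ hdisc (n := t) (k := k)
              (by omega) (by omega) D hOD hq H hfixH hHD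
            exact Or.inr (Or.inr (Or.inr (Or.inr (Or.inr (Or.inr (Or.inl ⟨F₁, r, P, hr, hcard, hrat, hle⟩))))))
        · have := hD.pos
          exact Or.inr (Or.inr (Or.inl ⟨t, d, D, by omega, hOD, hHD⟩))

theorem odd_ge_three {s : ℕ} (hs : Odd s) (h1 : s ≠ 1) : 3 ≤ s := by
  obtain ⟨a, ha⟩ := hs
  omega

theorem bot_central {G : Type*} [Group G] : ∀ z ∈ (⊥ : Subgroup G), ∀ g : G, g * z = z * g := by
  intro z hz g
  rw [Subgroup.mem_bot] at hz
  rw [hz, mul_one, one_mul]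

/-- class 4 (and class 7 with two factors): `N` acts homogeneously with absolutely irreducible constituents. -/
theorem tensor_cases [Fintype F] [Nonempty ι] (h2 : (2 : F) ≠ 0) (Q : QuadraticForm F (ι → F))
    (hQ : (polarBilin Q).Nondegenerate) {k : ℕ}
    (hk : Fintype.card ι = 2 * k + 1) (H : Subgroup (GL ι F)) (hfixH : FixesQuadForm (matrixSet H) Q)
    (hirr : ActsIrreducibly (matrixSet H)) (N : Subgroup (GL ι F)) (hm : MinOver H ⊥ N)
    (hNZ : N ⊓ scalars ι F = ⊥) (hnab : ¬ ⁅N, N⁆ ≤ ⊥) (hscal : IsScal (cen (env N))) :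
    InGeoO Q H ∨ ActsAbsolutelyIrreducibly (matrixSet N) := by
  classical
  have hNH : N ≤ H := hm.le
  have hNn : NormBy H N := hm.norm
  have hNne : N ≠ ⊥ := hm.lt.ne'
  have hf : IsSymmetricForm (polar Q) := polar_isSymmetric Q hQ
  have hfixf : FixesForm (matrixSet H) (polar Q) := fixes_polar Q H hfixH
  have hsim : H ≤ similarityGroup (polar Q) := le_sim_of_fixes _ H hfixf
  have hfixN : FixesForm (matrixSet N) (polar Q) := fun s hs => hfixf s (AschO.main_matrixSet_mono hNH hs)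
  obtain ⟨s, k', e, P, hB⟩ := AS.exists_leftFactor H hirr (env N) (AS.env_norm H N hNn) hscal
  have hcard : Fintype.card ι = s * k' := by
    rw [Fintype.card_congr e, Fintype.card_prod, Fintype.card_fin, Fintype.card_fin]
  have hodd : Odd (s * k') := hcard ▸ (⟨k, hk⟩ : Odd (Fintype.card ι))
  have hso : Odd s := (Nat.odd_mul.1 hodd).1
  have hko : Odd k' := (Nat.odd_mul.1 hodd).2
  have hs1 : s ≠ 1 := by
    rintro rfl
    have h1 := AS.le_scalars_of_env N (AS.scal_of_leftFactor_one (env N) e P hB)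
    exact hNne (eq_bot_iff.2 (hNZ ▸ le_inf le_rfl h1))
  by_cases hk1 : k' = 1
  · subst hk1
    exact Or.inr (AS.absIrr_of_env_top N (AS.top_of_leftFactor_one (env N) e P hB))
  left
  have h3s := odd_ge_three hso hs1
  have h3k := odd_ge_three hko hk1
  have hHt : H ≤ tensorProductSubgroup s k' e P := (AS.env_norm H N hNn).trans (AS.norm_le_tensor (env N) e P hB)
  obtain ⟨J₁, J₂, hJ⟩ := tensor_gram_sym (polar Q) hf (env N) e P hB
    (AS.env_adj (polar Q) hf.bilinear N (hNH.trans hsim))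
  obtain ⟨d1, d2, hsg⟩ := tensor_sign_sym (polar Q) hf e P J₁ J₂ hJ
  obtain ⟨t1, t2⟩ : J₁ᵀ = J₁ ∧ J₂ᵀ = J₂ := by
    rcases hsg with h | ⟨h, -⟩
    · exact h
    · exact (not_skew_odd h2 hso J₁ d1 h).elim
  rcases lt_trichotomy s k' with hlt | heq | hgt
  · obtain ⟨f₁, f₂, hf₁, hf₂, hst⟩ := tensor_struct_sym (polar Q) e P J₁ J₂ hJ t1 t2 d1 d2
    exact Or.inr (Or.inr (Or.inr (Or.inr (Or.inr (Or.inl ⟨s, k', e, P, f₁, f₂, h3s, hlt, hf₁, hf₂, hst, hHt⟩)))))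
  · subst heq
    by_cases hex : Fintype.card F = 3 ∧ s = 3
    · exfalso
      obtain ⟨hq, rfl⟩ := hex
      obtain ⟨ρ, hρ, hρJ⟩ := leftFactor_rep (polar Q) N hfixN e P hB J₁ J₂ hJ d2
      have hsolv : Group.IsSolvable N := solvable_three hq J₁ t1 d1 ρ hρ hρJ
      have hNN : NormBy N N := fun h hh x hx => N.mul_mem (N.mul_mem hh hx) (N.inv_mem hh)
      exact hNne (eq_bot_iff.2 (Asch.ag2_alpha H ⊥ N bot_central hm hnab N le_rfl hNN hsolv))
    · obtain ⟨b, c, hc, hJ'⟩ := exists_similar h2 hso J₁ J₂ t1 t2 d1 d2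
      obtain ⟨P', hJP, hgrp⟩ := tensor_change_basis (polar Q) e P J₁ J₂ hJ b
      have hb1 : (b : Matrix (Fin s) (Fin s) F) * ((b⁻¹ : GL (Fin s) F) : Matrix (Fin s) (Fin s) F) = 1 := by
        rw [← Units.val_mul, mul_inv_cancel, Units.val_one]
      have hcalc : ((b⁻¹ : GL (Fin s) F) : Matrix (Fin s) (Fin s) F)ᵀ * J₂ *
          ((b⁻¹ : GL (Fin s) F) : Matrix (Fin s) (Fin s) F) = c • J₁ := by
        rw [hJ', Matrix.mul_smul, Matrix.smul_mul]
        congr 1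
        calc ((b⁻¹ : GL (Fin s) F) : Matrix (Fin s) (Fin s) F)ᵀ *
              ((b : Matrix (Fin s) (Fin s) F)ᵀ * J₁ * (b : Matrix (Fin s) (Fin s) F)) *
              ((b⁻¹ : GL (Fin s) F) : Matrix (Fin s) (Fin s) F)
            = (((b⁻¹ : GL (Fin s) F) : Matrix (Fin s) (Fin s) F)ᵀ * (b : Matrix (Fin s) (Fin s) F)ᵀ) * J₁ *
              ((b : Matrix (Fin s) (Fin s) F) * ((b⁻¹ : GL (Fin s) F) : Matrix (Fin s) (Fin s) F)) := by
                simp only [Matrix.mul_assoc]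
          _ = J₁ := by rw [← Matrix.transpose_mul, hb1, Matrix.transpose_one, Matrix.one_mul, Matrix.mul_one]
      rw [hcalc] at hJP
      have hst := power_struct_of_gram (polar Q) e P' J₁ c hc hJP
      exact Or.inr (Or.inr (Or.inr (Or.inr (Or.inr (Or.inr (Or.inr ⟨s, 2, _, P', gf J₁, h3s, le_rfl, hex,
        gf_isSymmetric J₁ t1 d1, hst, (hgrp ▸ hHt).trans (tensor_le_wreath_i e P')⟩))))))
  · obtain ⟨f₂, f₁, hf₂, hf₁, hst⟩ := tensor_struct_sym (polar Q) (e.trans (Equiv.prodComm _ _)) P J₂ J₁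
      (AS.gram_swap (polar Q) e P J₁ J₂ hJ) t2 t1 d2 d1
    exact Or.inr (Or.inr (Or.inr (Or.inr (Or.inr (Or.inl ⟨k', s, _, P, f₂, f₁, h3k, hgt, hf₂, hf₁, hst,
      (AS.tensor_swap e P) ▸ hHt⟩)))))

/-- class 7: the tensor-induced case. -/
theorem induced_case [Fintype F] [Nonempty ι] (h2 : (2 : F) ≠ 0) (Q : QuadraticForm F (ι → F))
    (hQ : (polarBilin Q).Nondegenerate) {k : ℕ}
    (hk : Fintype.card ι = 2 * k + 1) (H : Subgroup (GL ι F)) (hfixH : FixesQuadForm (matrixSet H) Q)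
    (N : Subgroup (GL ι F)) (hm : MinOver H ⊥ N)
    (hNZ : N ⊓ scalars ι F = ⊥) (hnab : ¬ ⁅N, N⁆ ≤ ⊥) (hNabs : ActsAbsolutelyIrreducibly (matrixSet N))
    (hns : ¬ ∀ M : Subgroup (GL ι F), ⊥ ≤ M → M ≤ N → NormBy N M → M = ⊥ ∨ M = N) :
    InGeoO Q H := by
  classical
  have hNH : N ≤ H := hm.le
  have hf : IsSymmetricForm (polar Q) := polar_isSymmetric Q hQ
  have hfixf : FixesForm (matrixSet H) (polar Q) := fixes_polar Q H hfixH
  have hsim : H ≤ similarityGroup (polar Q) := le_sim_of_fixes _ H hfixf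
  obtain ⟨L, t, g, ht2, hgH, hLN, hLZ, hLnorm, hcomm, hgen, hfac, hperm⟩ :=
    AschG.exists_commuting_conj' H ⊥ N bot_central hm hnab hns
  have hfixL : FixesForm (matrixSet L) (polar Q) :=
    fun s hs => hfixf s (AschO.main_matrixSet_mono (hLN.trans hNH) hs)
  have hcen := cen_env_scal N L hNabs hfac
  obtain ⟨s, k', e₀, P₀, hB⟩ := AS.exists_leftFactor N hNabs.1 (env L) (AS.env_norm N L hLnorm) hcen
  have hcard : Fintype.card ι = s * k' := by
    rw [Fintype.card_congr e₀, Fintype.card_prod, Fintype.card_fin, Fintype.card_fin]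
  have hodd : Odd (s * k') := hcard ▸ (⟨k, hk⟩ : Odd (Fintype.card ι))
  have hso : Odd s := (Nat.odd_mul.1 hodd).1
  have hs1 : s ≠ 1 := by
    rintro rfl
    have h1 := AS.le_scalars_of_env L (AS.scal_of_leftFactor_one (env L) e₀ P₀ hB)
    exact hLZ (hNZ ▸ le_inf hLN h1)
  have h3s := odd_ge_three hso hs1
  obtain ⟨J₁, J₂, hJ⟩ := tensor_gram_sym (polar Q) hf (env L) e₀ P₀ hB
    (AS.env_adj (polar Q) hf.bilinear L ((hLN.trans hNH).trans hsim))
  obtain ⟨d1, d2, hsg⟩ := tensor_sign_sym (polar Q) hf e₀ P₀ J₁ J₂ hJ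
  have t1 : J₁ᵀ = J₁ := by
    rcases hsg with h | ⟨h, -⟩
    · exact h.1
    · exact (not_skew_odd h2 hso J₁ d1 h).elim
  have hex : ¬ (Fintype.card F = 3 ∧ s = 3) := by
    rintro ⟨hq, rfl⟩
    obtain ⟨ρ, hρ, hρJ⟩ := leftFactor_rep (polar Q) L hfixL e₀ P₀ hB J₁ J₂ hJ d2
    have hsolv : Group.IsSolvable L := solvable_three hq J₁ t1 d1 ρ hρ hρJ
    exact hLZ (Asch.ag2_alpha H ⊥ N bot_central hm hnab L hLN hLnorm hsolv)
  choose φ hφ using fun i => exists_phi e₀ P₀ (g i)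
  have hgi : ∀ (z : GL ι F) (y : Matrix ι ι F), ((z⁻¹ : GL ι F) : Matrix ι ι F) * ((z : Matrix ι ι F) * y *
      ((z⁻¹ : GL ι F) : Matrix ι ι F)) * (z : Matrix ι ι F) = y := by
    intro z y
    have h1 : ((z⁻¹ : GL ι F) : Matrix ι ι F) * (z : Matrix ι ι F) = 1 := by
      rw [← Units.val_mul, inv_mul_cancel, Units.val_one]
    calc _ = (((z⁻¹ : GL ι F) : Matrix ι ι F) * (z : Matrix ι ι F)) * y *
          (((z⁻¹ : GL ι F) : Matrix ι ι F) * (z : Matrix ι ι F)) := by simp only [Matrix.mul_assoc]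
      _ = y := by rw [h1, Matrix.one_mul, Matrix.mul_one]
  have hgi' : ∀ (z : GL ι F) (y : Matrix ι ι F), (z : Matrix ι ι F) * (((z⁻¹ : GL ι F) : Matrix ι ι F) * y *
      (z : Matrix ι ι F)) * ((z⁻¹ : GL ι F) : Matrix ι ι F) = y := by
    intro z y
    have h1 : (z : Matrix ι ι F) * ((z⁻¹ : GL ι F) : Matrix ι ι F) = 1 := by
      rw [← Units.val_mul, mul_inv_cancel, Units.val_one]
    calc _ = ((z : Matrix ι ι F) * ((z⁻¹ : GL ι F) : Matrix ι ι F)) * y *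
          ((z : Matrix ι ι F) * ((z⁻¹ : GL ι F) : Matrix ι ι F)) := by simp only [Matrix.mul_assoc]
      _ = y := by rw [h1, Matrix.one_mul, Matrix.mul_one]
  have hmemφ : ∀ i x, φ i x ∈ env (L.map (MulAut.conj (g i)).toMonoidHom) := by
    intro i x
    rw [env_conj_iff, hφ, hgi]
    exact (hB _).2 ⟨x, rfl⟩
  have hrange : ∀ i y, y ∈ env (L.map (MulAut.conj (g i)).toMonoidHom) → ∃ x, y = φ i x := by
    intro i y hy
    rw [env_conj_iff] at hy
    obtain ⟨x, hx⟩ := (hB _).1 hy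
    refine ⟨x, ?_⟩
    rw [hφ, ← hx, hgi']
  have hcomm' : ∀ i j, i ≠ j → ∀ x y, φ i x * φ j y = φ j y * φ i x := by
    intro i j hij x y
    refine env_comm _ _ ?_ _ (hmemφ i x) _ (hmemφ j y)
    rintro _ ⟨a, ha, rfl⟩ _ ⟨b, hb, rfl⟩
    exact hcomm i j hij a ha b hb
  obtain ⟨Ψ, hΨ⟩ := exists_tensor_hom_i φ hcomm'
  have hsurj : Function.Surjective Ψ := by
    have htop := adjoin_top_of_gen N hNabs (fun i => L.map (MulAut.conj (g i)).toMonoidHom)
      (fun x hx => by simpa using hgen x hx)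
    rw [← AlgHom.range_eq_top, eq_top_iff, ← htop]
    apply Algebra.adjoin_le
    intro y hy
    obtain ⟨i, hi⟩ := Set.mem_iUnion.1 hy
    obtain ⟨x, rfl⟩ := hrange i y hi
    exact ⟨slot i x, hΨ i x⟩
  have hc := card_of_surj Ψ hsurj
  obtain ⟨e, P, hP⟩ := tensor_basis_of_hom_i hc Ψ
  have hslot : ∀ i x, twi e P (slot i x) = φ i x := by
    intro i x
    rw [← hP, hΨ]
  have hle : H ≤ tensorWreathSubgroup s t e P := by
    intro h hh
    obtain ⟨σ, hσ⟩ := hperm h hh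
    refine mem_tensorWreath_i (by omega) e P h σ (fun i x => ?_)
    have h1 : (h : Matrix ι ι F) * φ i x * ((h⁻¹ : GL ι F) : Matrix ι ι F) ∈
        env (L.map (MulAut.conj (g (σ i))).toMonoidHom) := by
      rw [← hσ i, env_conj_iff, hφ]
      have h3 : (((h * g i)⁻¹ : GL ι F) : Matrix ι ι F) * ((h : Matrix ι ι F) * ((g i : Matrix ι ι F) *
          tmat e₀ P₀ (x ⊗ₖ (1 : Matrix (Fin k') (Fin k') F)) * (((g i)⁻¹ : GL ι F) : Matrix ι ι F)) *
          ((h⁻¹ : GL ι F) : Matrix ι ι F)) * ((h * g i : GL ι F) : Matrix ι ι F) =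
          tmat e₀ P₀ (x ⊗ₖ (1 : Matrix (Fin k') (Fin k') F)) := by
        have e1 : (h : Matrix ι ι F) * ((g i : Matrix ι ι F) *
            tmat e₀ P₀ (x ⊗ₖ (1 : Matrix (Fin k') (Fin k') F)) * (((g i)⁻¹ : GL ι F) : Matrix ι ι F)) *
            ((h⁻¹ : GL ι F) : Matrix ι ι F) = ((h * g i : GL ι F) : Matrix ι ι F) *
            tmat e₀ P₀ (x ⊗ₖ (1 : Matrix (Fin k') (Fin k') F)) * (((h * g i)⁻¹ : GL ι F) : Matrix ι ι F) := by
          rw [mul_inv_rev, Units.val_mul, Units.val_mul]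
          simp only [Matrix.mul_assoc]
        rw [e1, hgi]
      rw [h3]
      exact (hB _).2 ⟨x, rfl⟩
    obtain ⟨y, hy⟩ := hrange (σ i) _ h1
    exact ⟨y, by rw [hslot, hslot, hy]⟩
  have hadj : ∀ i x u v, polar Q (twi e P (slot i x) *ᵥ u) v =
      polar Q u (twi e P (slot i (J₁⁻¹ * xᵀ * J₁)) *ᵥ v) := by
    intro i x u v
    rw [hslot, hslot, hφ, hφ]
    exact adj_conj (polar Q) (g i) (fun u v => hfixf _ ⟨g i, hgH i, rfl⟩ u v) _ _
      (adj_leftFactor (polar Q) e₀ P₀ J₁ J₂ hJ d1 x) u v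
  have hst := gram_power (polar Q) hf.bilinear hf.nondegenerate e P J₁ d1 hadj
  exact Or.inr (Or.inr (Or.inr (Or.inr (Or.inr (Or.inr (Or.inr ⟨s, t, e, P, gf J₁, h3s, ht2, hex,
    gf_isSymmetric J₁ t1 d1, hst, hle⟩))))))

/-- **Aschbacher's theorem for `Ω_n(q)`, `n ≥ 7` odd, `q` odd.** -/
theorem mainO [Fintype F] (h2 : (2 : F) ≠ 0) (Q : QuadraticForm F (ι → F)) (hQ : (polarBilin Q).Nondegenerate)
    (hdisc : ∀ F₀ : Subfield F, (AschO.gram Q).det ∈ F₀) {k : ℕ} (hk : Fintype.card ι = 2 * k + 1)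
    (h7 : 7 ≤ Fintype.card ι) (H : Subgroup (GL ι F)) (hH : H ≤ omegaGL Q) :
    InGeoO Q H ∨ InOrthogonalResidualClass H := by
  classical
  have hfixH : FixesQuadForm (matrixSet H) Q := AschO.main_fixes_mono hH _ (AschO.omega_fixes Q)
  have hodd : Odd (Fintype.card ι) := ⟨k, hk⟩
  haveI : Nonempty ι := Fintype.card_pos_iff.1 (by omega)
  have hf : IsSymmetricForm (polar Q) := polar_isSymmetric Q hQ
  have hfixf : FixesForm (matrixSet H) (polar Q) := fixes_polar Q H hfixH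
  have hsim : H ≤ similarityGroup (polar Q) := le_sim_of_fixes _ H hfixf
  by_cases hirr : ActsIrreducibly (matrixSet H)
  swap
  · left
    obtain ⟨W, hW0, hW1, hHW⟩ := AschO.red H hirr
    rcases AschO.main_red h2 Q hQ hk h7 H hfixH W hW0 hW1 hHW with ⟨W', h0, h1, hs, hst⟩ | ⟨W', h0, h1, he, hnd, hex, hst⟩
    · exact Or.inl ⟨W', h0, hs, hst⟩
    · exact Or.inr (Or.inl ⟨W', h0, h1, hnd, hst⟩)
  have hHne : H ≠ ⊥ := AschO.ne_bot_of_irr (by omega) H hirr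
  obtain ⟨N, hm⟩ := Asch.exists_minOver H ⊥ (bot_lt_iff_ne_bot.2 hHne)
  have hNH : N ≤ H := hm.le
  have hNn : NormBy H N := hm.norm
  have hNne : N ≠ ⊥ := hm.lt.ne'
  have hfixN : FixesQuadForm (matrixSet N) Q := AschO.main_fixes_mono hNH _ hfixH
  have hNZ : N ⊓ scalars ι F = ⊥ := by
    rw [eq_bot_iff, ← AschO.omega_inf_scalars Q hQ hodd]
    exact inf_le_inf_right _ (hNH.trans hH)
  have hmemenv : ∀ x ∈ N, (x : Matrix ι ι F) ∈ env N := fun x hx => Algebra.subset_adjoin ⟨x, hx, rfl⟩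
  have hcommN : ∀ x ∈ N, ∀ z ∈ cen (env N), (x : Matrix ι ι F) * z = z * (x : Matrix ι ι F) := by
    intro x hx z hz
    exact (Subalgebra.mem_centralizer_iff F).1 (Algebra.mem_inf.1 hz).2 _ (hmemenv x hx)
  rcases comm_cases h2 Q hQ hdisc hk H hfixH hirr N hNH hNZ hNne (cen (env N)) (AS.cen_comm _)
      (AS.cen_norm H _ (AS.env_norm H N hNn))
      (cen_adj_sym (polar Q) hf _ (AS.env_adj (polar Q) hf.bilinear N (hNH.trans hsim))) hcommN with hgeo | hscal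
  · exact Or.inl hgeo
  have hnab : ¬ ⁅N, N⁆ ≤ ⊥ := by
    intro h
    have hab := AschO.main_comm_of_commutator N h
    have hec := env_comm N N hab
    have hsc : IsScal (env N) := by
      intro x hx
      refine hscal x (Algebra.mem_inf.2 ⟨hx, (Subalgebra.mem_centralizer_iff F).2 (fun y hy => hec y hy x hx)⟩)
    exact hNne (eq_bot_iff.2 (hNZ ▸ le_inf le_rfl (AS.le_scalars_of_env N hsc)))
  rcases tensor_cases h2 Q hQ hk H hfixH hirr N hm hNZ hnab hscal with hgeo | hNabs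
  · exact Or.inl hgeo
  by_cases hns : ∀ M : Subgroup (GL ι F), ⊥ ≤ M → M ≤ N → NormBy N M → M = ⊥ ∨ M = N
  swap
  · exact Or.inl (induced_case h2 Q hQ hk H hfixH N hm hNZ hnab hNabs hns)
  have hperf := Asch.perfect_core H ⊥ N bot_central hm hnab
  have hNN : ⁅N, N⁆ = N := by simpa using hperf.2
  have hHnorm : H ≤ subgroupNormalizer N := (Asch.ag5_normBy_iff H N).1 hNn
  by_cases hsub : ∃ F₀ : Subfield F, F₀ ≠ ⊤ ∧ RealisableOver F₀ (matrixSet N)
  · obtain ⟨F₀, h0, hreal⟩ := hsub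
    obtain ⟨F₁, r, P, hr, hcard, hrat, hle⟩ := AschO.subfield_case h2 Q hQ hdisc hk N hNabs hfixN F₀ h0 hreal
    exact Or.inl (Or.inr (Or.inr (Or.inr (Or.inr (Or.inr (Or.inr (Or.inl ⟨F₁, r, P, hr, hcard, hrat,
      hHnorm.trans hle⟩)))))))
  refine Or.inr ⟨N, ⟨hNH, hNn, hNN, ?_, ?_, ?_, hNabs, ?_⟩, ?_⟩
  · exact AschO.simple_quot_of_inf_bot (scalars ι F) N hNZ hNne (fun M hM hMn => hns M bot_le hM hMn)
  · apply Asch.nonabelian_quot
    rw [hNN]
    intro h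
    exact hNne (eq_bot_iff.2 (hNZ ▸ le_inf le_rfl h))
  · intro h _ hh
    have hcen := Asch.centralizes_of_perfect (scalars ι F) N
      (fun z hz g => AschO.scalars_central z hz g) hNN h hh
    obtain ⟨c, hc'⟩ := hNabs.2 (h : Matrix ι ι F) (by
      rintro _ ⟨x, hx, rfl⟩
      have := congrArg (fun g : GL ι F => (g : Matrix ι ι F)) (hcen x hx)
      simpa using this)
    have hc0 : c ≠ 0 := by
      rintro rfl
      have h1 : (h : Matrix ι ι F) = 0 := by rw [hc', zero_smul]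
      have h3 : (h : Matrix ι ι F) * ((h⁻¹ : GL ι F) : Matrix ι ι F) = 1 := by
        rw [← Units.val_mul, mul_inv_cancel, Units.val_one]
      rw [h1, zero_mul] at h3
      exact zero_ne_one h3
    rw [mem_scalars_iff]
    exact ⟨Units.mk0 c hc0, hc'⟩
  · intro F₀ h0 hreal
    exact hsub ⟨F₀, h0, hreal⟩
  · rintro ⟨σ, f, hf', hfixf'⟩
    exact hsub (AschO.unitary_realisable hk Q hQ N hNabs hfixN σ f hf' hfixf')

end Cfsg.Agent.Lib.Lead.OG
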